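import Cfsg.Agent.Lib.CO.A0a

set_option autoImplicit false

namespace CfsgLib.CO

open Subgroup Cfsg CfsgLib.FT CfsgLib.FT.BGN CfsgLib.GW CfsgLib.Wal

universe u

theorem s4008_of_thmA (hA : ThmA.{u}) {G : Type u} [Group G] [Finite G]
    (hns : ¬ Group.IsSolvable G)
    (r : ℕ) (hr : r.Prime) (hodd : r ≠ 2) (hrG : r ∣ Nat.card G) (hno : ∀ g : G, orderOf g ≠ 2 * r)
    (R : Subgroup G) [R.Normal] (hRs : Group.IsSolvable ↥R)
    (hRmax : ∀ N : Subgroup G, N.Normal → Group.IsSolvable ↥N → N ≤ R) :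
    ∃ S : Subgroup (G ⧸ R), S.Normal ∧ IsSimpleGroup ↥S ∧ ¬ IsMulCommutative ↥S ∧
      Subgroup.centralizer (S : Set (G ⧸ R)) = ⊥ := by sorry

end CfsgLib.CO
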