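import Cfsg.Agent.Lib.CO.A1a
import Cfsg.Agent.Lib.H9Misc

set_option autoImplicit false

namespace CfsgLib.CO

open Subgroup Cfsg CfsgLib.FT CfsgLib.FT.BGN CfsgLib.GW CfsgLib.Wal
open CfsgLib.FT.U4 (mem_cent1 mem_cent1' mem_cent mem_cent1_comm cent1_conj conj_mem_conj_iff
  orderOf_conj)
open scoped commutatorElement

universe u

theorem a1_fpf {H : Type*} [Group H] {r : ℕ} (hr : r.Prime) (h2 : r ≠ 2) (h : NoOrd r H) {a : H}
    (ha : orderOf a = r) {V : Subgroup H} (hV : IsPGroup 2 V) [Finite H] :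
    V ⊓ 𝐂(zpowers a) = ⊥ := by
  by_contra hne
  obtain ⟨k, hk⟩ := (hV.to_inf_left (K := 𝐂(zpowers a))).exists_card_eq
  obtain ⟨t, ht⟩ := exists_prime_orderOf_dvd_card' (G := (V ⊓ 𝐂(zpowers a) : Subgroup H)) 2 (by
    rcases k with _ | k
    · exact absurd (eq_bot_of_card_eq _ hk) hne
    · rw [hk]; exact dvd_pow_self 2 (Nat.succ_ne_zero k))
  rw [← Subgroup.orderOf_coe] at ht
  exact h.not_comm hr h2 ht ha (t.2.2 a (mem_zpowers a)).symm

/-- `[L, a]` centralizes every normal `2`-subgroup. -/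
theorem a1_comm_cent {r : ℕ} (hr : r.Prime) (h2 : r ≠ 2) (H : Type u) [Group H] [Finite H] :
    NoOrd r H → ∀ (a : H) (L P : Subgroup H), a ^ r = 1 → a ∈ 𝐍(L) → Odd (Nat.card L) →
      (Nat.card L).Coprime r → P.Normal → IsPGroup 2 P → ∀ g ∈ L, ⁅g, a⁆ ∈ 𝐂(P) := by
  refine card_induction (P := fun H _ _ => NoOrd r H → ∀ (a : H) (L P : Subgroup H), a ^ r = 1 →
    a ∈ 𝐍(L) → Odd (Nat.card L) → (Nat.card L).Coprime r → P.Normal → IsPGroup 2 P →
      ∀ g ∈ L, ⁅g, a⁆ ∈ 𝐂(P)) ?_ H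
  intro H _ _ ih h a L P ha haL hL hLr hP hP2 g hg
  have := Fact.mk hr
  by_cases ha1 : a = 1
  · rw [ha1, commutatorElement_one_right]
    exact one_mem _
  by_cases hP0 : P = ⊥
  · rw [hP0]
    exact le_centralizer_iff.1 bot_le (mem_top _)
  obtain ⟨V, hV, hVP⟩ := exists_isMinNormal_le P hP0
  have := hV.1
  have hV2 := hP2.to_le hVP
  have h1 : ⁅g, a⁆ ∈ 𝐂(V) := by
    by_contra hn
    obtain ⟨d, -, -, Q, hQL, hQ, hnc⟩ := H9.hh_prime_fpf Nat.prime_two hr
      (hV.isElementaryAbelian_of_isPGroup hV2) le_normalizer_of_normal ha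
      (le_normalizer_of_normal (mem_zpowers a)) haL (Nat.coprime_two_right.2 hL) hLr ⟨g, hg, hn⟩
      (a1_fpf hr h2 h (orderOf_eq_prime ha ha1) hV2)
    have h3 : Q = ⊥ := U4.eq_bot_of_forall fun x hx => Invol.eq_one_of_odd_of_mem hQ hx
      (hL.of_dvd_nat (L.orderOf_dvd_natCard (hQL hx)))
    exact hnc (h3 ▸ inferInstance)
  have h3 := ih (H ⧸ V) (card_quotient_lt hV.2.1) (h.of_surjective (QuotientGroup.mk'_surjective V))
    (QuotientGroup.mk' V a) (L.map (QuotientGroup.mk' V)) (P.map (QuotientGroup.mk' V))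
    (by rw [← map_pow, ha, map_one]) (le_normalizer_map _ ⟨a, haL, rfl⟩)
    (hL.of_dvd_nat (card_map_dvd _ _)) (hLr.coprime_dvd_left (card_map_dvd _ _))
    (hP.map _ (QuotientGroup.mk'_surjective V)) (hP2.map _) _ ⟨g, hg, rfl⟩
  have hgL : ⁅g, a⁆ ∈ L := by
    rw [commutatorElement_def, mul_assoc, mul_assoc, ← mul_assoc a]
    exact mul_mem hg (conj_mem_of_mem_normalizer haL (inv_mem hg))
  have h4 : ⁅P, zpowers ⁅g, a⁆⁆ ≤ V := by
    refine commutator_le.2 fun p hp b hb => ?_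
    have h5 : zpowers ⁅g, a⁆ ≤ (𝐂(P.map (QuotientGroup.mk' V))).comap (QuotientGroup.mk' V) :=
      zpowers_le.2 (by rwa [mem_comap, map_commutatorElement])
    rw [← QuotientGroup.eq_one_iff, ← QuotientGroup.mk'_apply, map_commutatorElement,
      commutatorElement_eq_one_iff_mul_comm]
    exact h5 hb _ ⟨p, hp, rfl⟩
  have h5 := Cop.commutator_eq_bot_of_le_of_centralizes h4
    (Cop.commutator_eq_bot_iff_le_centralizer'.2 (zpowers_le.2 h1))
    (Cop.coprime_card_of_isPGroup (Nat.coprime_two_right.2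
      (hL.of_dvd_nat (card_dvd_of_le (zpowers_le.2 hgL)))) hV2)
  exact Cop.commutator_eq_bot_iff_le_centralizer'.1 h5 (mem_zpowers _)

theorem a1_key {r : ℕ} (hr : r.Prime) (h2 : r ≠ 2) {H : Type u} [Group H] [Finite H]
    (h : NoOrd r H) (hs : Group.IsSolvable H) (hO : pPrimeCore 2 H = ⊥) {K T : Subgroup H}
    [K.Normal] {a : H} (ha : orderOf a = r) (hK : (Nat.card K).Coprime r)
    (hsup : K ⊔ zpowers a = ⊤) (hT : IsSylowIn 2 T K) (haT : a ∈ 𝐍(T)) :
    T.Normal ∧ ∀ n : H, ⁅n, a⁆ ∈ T := by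
  have hcop : ∀ U ≤ K, (Nat.card (zpowers a)).Coprime (Nat.card U) := fun U hU => by
    rw [Nat.card_zpowers, ha]
    exact (hK.coprime_dvd_left (card_dvd_of_le hU)).symm
  obtain ⟨L, hL, haL⟩ := Cop.exists_invariant_hallOf {2}ᶜ (A := zpowers a) (G := K)
    le_normalizer_of_normal (hcop K le_rfl) inferInstance
  have hLo : Odd (Nat.card L) := Nat.not_even_iff_odd.1 fun e =>
    hL.2.1 2 Nat.prime_two (even_iff_two_dvd.1 e) rfl
  have hLa : L ≤ 𝐂(zpowers a) := fun g hg => by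
    have h1 := centralizer_pCore_le (isPSolvable_of_isSolvable hs) hO
      (a1_comm_cent hr h2 H h a L (pCore 2 H) (ha ▸ pow_orderOf_eq_one a) (haL (mem_zpowers a)) hLo
        (hK.coprime_dvd_left (card_dvd_of_le hL.1)) inferInstance (pCore_isPGroup 2) g hg)
    have hgL : ⁅g, a⁆ ∈ L := by
      rw [commutatorElement_def, mul_assoc, mul_assoc, ← mul_assoc a]
      exact mul_mem hg (conj_mem_of_mem_normalizer (haL (mem_zpowers a)) (inv_mem hg))
    have h3 := Invol.eq_one_of_odd_of_mem (pCore_isPGroup 2) h1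
      (hLo.of_dvd_nat (L.orderOf_dvd_natCard hgL))
    rw [U4.cent_zpowers, mem_cent1]
    exact commutatorElement_eq_one_iff_mul_comm.1 h3
  have h1 : ⁅K, zpowers a⁆ ≤ T := commutator_le.2 fun k hk b hb => by
    obtain ⟨t, ht, l, hl, rfl⟩ := exists_mul_of_hallOf (U4.hallOf_of_sylow hT) hL hk
    have e : ⁅t * l, b⁆ = t * (b * t⁻¹ * b⁻¹) := by
      rw [commutatorElement_def]
      calc t * l * b * (t * l)⁻¹ * b⁻¹ = t * (l * b) * l⁻¹ * t⁻¹ * b⁻¹ := by group
        _ = _ := by rw [← hLa hl b hb]; group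
    rw [e]
    exact mul_mem ht (conj_mem_of_mem_normalizer (zpowers_le.2 haT hb) (inv_mem ht))
  have h3 : T ≤ ⁅K, zpowers a⁆ := by
    have h4 := Cop.commutator_sup_centralizer (zpowers_le.2 haT) (hcop T hT.le)
      (Or.inl isSolvable_of_isMulCommutative)
    rw [a1_fpf hr h2 h ha hT.isPGroup, sup_bot_eq] at h4
    exact h4.ge.trans (commutator_mono hT.le le_rfl)
  refine ⟨normal_of_le_normalizer_top (hsup.ge.trans ?_), fun n => ?_⟩
  · rw [le_antisymm h3 h1]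
    exact sup_le (normalizer_commutator_ge_left _ _) (normalizer_commutator_ge_right _ _)
  · obtain ⟨k, hk, b, hb, rfl⟩ := (mem_sup_iff_of_le_normalizer' le_normalizer_of_normal).1
      (hsup.ge (mem_top n))
    have e : ⁅k * b, a⁆ = ⁅k, a⁆ := by
      rw [commutatorElement_def, commutatorElement_def]
      calc k * b * a * (k * b)⁻¹ * a⁻¹ = k * (b * a) * b⁻¹ * k⁻¹ * a⁻¹ := by group
        _ = _ := by rw [mem_cent1.1 (U4.zpowers_le_cent1 a hb)]; group
    rw [e]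
    exact h1 (commutator_mem_commutator hk (mem_zpowers a))

variable {X : Type*} [Group X] [Finite X] {G T : Subgroup X} {a : X} {r : ℕ}

namespace CO0

variable (h : CO0 G T a r)
include h

theorem noOrd : NoOrd r X := fun g hg => by
  have := h.normal
  have := Fact.mk h.prime
  have hr0 := h.prime.pos
  have h1 : IsSylowIn r (zpowers a) ⊤ := by
    refine ⟨le_top, IsPGroup.of_card (n := 1) (by rw [Nat.card_zpowers, h.ord, pow_one]), ?_⟩
    have h2 := card_sup_of_disjoint (H := zpowers a) (N := G) le_normalizer_of_normal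
      (inf_eq_bot_of_coprime (h.coprime le_rfl))
    rw [sup_comm, h.sup, card_top, ← (zpowers a).card_mul_index] at h2
    rw [relIndex_top_right, Nat.eq_of_mul_eq_mul_left Nat.card_pos h2]
    exact h.cop
  have hb : orderOf (g ^ 2) = r := by
    rw [orderOf_pow, hg, Nat.gcd_mul_right_left, Nat.mul_div_cancel_left _ two_pos]
  have ht : orderOf (g ^ r) = 2 := by
    rw [orderOf_pow, hg, Nat.gcd_mul_left_left, Nat.mul_div_cancel _ hr0]
  obtain ⟨x, -, hx⟩ := h1.exists_conj_le (Q := zpowers (g ^ 2))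
    (IsPGroup.of_card (n := 1) (by rw [Nat.card_zpowers, hb, pow_one])) le_top
  have h3 := eq_of_le_of_card_ge hx (by
    rw [card_map_conj, Nat.card_zpowers, Nat.card_zpowers, hb, h.ord])
  have h4 : zpowers a ≤ 𝐂[x * g ^ r * x⁻¹] := by
    rw [← h3, cent1_conj]
    exact map_mono (zpowers_le.2 (mem_cent1.2 (pow_mul_comm g 2 r)))
  exact U4.conj_ne_one_iff.2 (red_ne_one ht) (h.fpf _ (Invol.conj_mul_self (red_mul_self ht) x)
    (mem_cent1'.1 (h4 (mem_zpowers a))))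

theorem a1_main {M : Subgroup X} (ha : a ∈ M) (hT : T ≤ M) (hG : ¬ G ≤ M) :
    M ≤ 𝐍(Od M ⊔ T) ∧ ∀ n ∈ M, ⁅n, a⁆ ∈ Od M ⊔ T := by
  have := h.normal
  have := Fact.mk h.prime
  have hs := h.solv_of ha hG
  let f := QuotientGroup.mk' (pPrimeCore 2 M)
  have hf : Function.Surjective f := QuotientGroup.mk'_surjective _
  have hker : ∀ x : M, f x = 1 → (x : X) ∈ Od M := fun x hx => by
    rw [Od, ← H1.map_pPrimeCore_eq_piCoreOf]
    exact ⟨x, (QuotientGroup.eq_one_iff x).1 hx, rfl⟩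
  have hback : ∀ x : M, f x ∈ (T.subgroupOf M).map f → (x : X) ∈ Od M ⊔ T := by
    rintro x ⟨t, ht, e⟩
    have h1 := hker (x * t⁻¹) (by rw [map_mul, map_inv, e, mul_inv_cancel])
    simpa using mul_mem_sup h1 ht
  have hM : NoOrd r M := fun g hg => h.noOrd g (by rwa [Subgroup.orderOf_coe])
  have ha1 : f ⟨a, ha⟩ ≠ 1 := fun e => by
    obtain ⟨z, hz, h1⟩ := U4.exists_ne_one h.Om_ne_bot
    have h2 : zpowers a ≤ 𝐂(T) := commutator_eq_bot_iff_le_centralizer.1 (le_bot_iff.1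
      ((Od_inf_eq_bot (M := M) h.syl.isPGroup).le.trans' (le_inf
        ((commutator_mono (zpowers_le.2 (hker _ e)) le_rfl).trans
          (U4.comm_le_left (hT.trans (le_norm_Od M))))
        (U4.comm_le_right (zpowers_le.2 h.anorm)))))
    exact h1 (h.fpf z hz.2.2 (h2 (mem_zpowers a) z hz.1))
  have hKn : ((G.subgroupOf M).map f).Normal := Normal.map inferInstance f hf
  obtain ⟨k1, k2⟩ := a1_key h.prime h.odd (hM.of_surjective hf) inferInstance
    (pPrimeCore_quotient_pPrimeCore 2) (K := (G.subgroupOf M).map f) (T := (T.subgroupOf M).map f)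
    (a := f ⟨a, ha⟩)
    (orderOf_eq_prime (by
      rw [← map_pow, show (⟨a, ha⟩ : M) ^ r = 1 from
        Subtype.ext (by rw [Subgroup.coe_pow, ← h.ord, pow_orderOf_eq_one]; rfl), map_one]) ha1)
    (((Nat.Prime.coprime_iff_not_dvd h.prime).2 h.cop).symm.coprime_dvd_left
      ((card_map_dvd _ _).trans (card_comap_dvd_of_injective _ _ M.subtype_injective)))
    (eq_top_iff.2 fun q _ => by
      obtain ⟨x, rfl⟩ := hf q
      obtain ⟨k, hk, b, hb, e⟩ := (mem_sup_iff_of_le_normalizer' le_normalizer_of_normal).1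
        (h.sup.ge (mem_top (x : X)))
      have hbM : b ∈ M := zpowers_le.2 ha hb
      have hkM : k ∈ M := by
        rw [eq_mul_inv_of_mul_eq e]
        exact mul_mem x.2 (inv_mem hbM)
      have e' : x = ⟨k, hkM⟩ * ⟨b, hbM⟩ := Subtype.ext e.symm
      rw [e', map_mul]
      refine mul_mem_sup ⟨_, hk, rfl⟩ ?_
      obtain ⟨n, rfl⟩ := mem_zpowers_iff.1 hb
      exact ⟨n, (map_zpow f ⟨a, ha⟩ n).symm⟩)
    ((((h.syl.mono hT le_top).subgroupOf le_rfl).mono (subgroupOf_mono M h.le)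
      (by rw [subgroupOf_self]; exact le_top)).map f)
    (le_normalizer_map _ ⟨⟨a, ha⟩, le_normalizer_comap _ h.anorm, rfl⟩)
  refine ⟨fun n hn => mem_normalizer_of_conj_mem fun y hy => ?_, fun n hn => ?_⟩
  · obtain ⟨o, ho, t, ht, rfl⟩ := (mem_sup_iff_of_le_normalizer' (hT.trans (le_norm_Od M))).1 hy
    rw [show n * (o * t) * n⁻¹ = n * o * n⁻¹ * (n * t * n⁻¹) by group]
    refine mul_mem (mem_sup_left (conj_mem_of_mem_normalizer (le_norm_Od M hn) ho))
      (hback (⟨n, hn⟩ * ⟨t, hT ht⟩ * ⟨n, hn⟩⁻¹) ?_)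
    rw [map_mul, map_mul, map_inv]
    exact k1.conj_mem _ ⟨_, ht, rfl⟩ _
  · refine hback ⁅(⟨n, hn⟩ : M), ⟨a, ha⟩⁆ ?_
    rw [map_commutatorElement]
    exact k2 _

theorem co1 : CO1 G T a r where
  toCO0 := h
  loc := fun D h1 h0 h2 ha n hn => by
    obtain ⟨h3, -⟩ := h.a1_main ha h2 (h.not_le_norm h1 h0)
    obtain ⟨k, hk, h4⟩ := (h.syl.mono le_sup_right le_top).frattini_elem (h3 hn)
    obtain ⟨o, ho, t, ht, e⟩ := (mem_sup_iff_of_le_normalizer' (h2.trans (le_norm_Od _))).1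
      (inv_mem hk)
    exact ⟨o, ho, t * (k * n), mul_mem (le_normalizer ht) h4, by rw [← mul_assoc, e]; group⟩
  cz := fun n hn z hz => by
    have haZ := aux_norm_Om T h.anorm
    obtain ⟨-, h3⟩ := h.a1_main haZ (le_normalizer.trans (aux_norm_Om T))
      (h.not_le_norm h.zt.le h.Om_ne_bot)
    have h4 : Od 𝐍(Om T) ≤ 𝐂(Om T) := U4.le_cent_of_inf_eq_bot (Od_le _)
      (le_normalizer.trans (le_norm_Od _)) (Od_inf_eq_bot h.zt.two)
    have h5 := sup_le h4 h.zt.cent (h3 _ (inv_mem hn)) _ (conj_mem_of_mem_normalizer haZ hz)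
    rw [commutatorElement_def] at h5
    calc a * (n * z * n⁻¹) * a⁻¹
        = n * (n⁻¹ * a * n⁻¹⁻¹ * a⁻¹ * (a * z * a⁻¹)) * (n⁻¹ * a * n⁻¹⁻¹ * a⁻¹)⁻¹ * n⁻¹ := by group
      _ = _ := by rw [← h5]; group
  fix := fun _ _ hz h1 hg => h.fix' hz h1 hg
  two_le := fun _ hD => h.two_le' hD

end CO0

end CfsgLib.CO
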