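import Cfsg.Agent.Lib.CO.Defs
import Cfsg.Agent.Lib.CO.WC
import Cfsg.Agent.Lib.CO.Red

/-!
# Elementary consequences of `CO0`
-/

set_option autoImplicit false

namespace CfsgLib.CO

open Subgroup Cfsg CfsgLib.FT CfsgLib.FT.BGN CfsgLib.GW CfsgLib.Wal
open CfsgLib.FT.U4 (mem_cent1 mem_cent1' mem_cent mem_cent1_comm cent1_conj conj_mem_conj_iff
  orderOf_conj)
open scoped commutatorElement

variable {X : Type*} [Group X] [Finite X] {G T : Subgroup X} {a : X} {r : ℕ}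

theorem aux_norm_Om (T : Subgroup X) : 𝐍(T) ≤ 𝐍(Om T) := fun n hn =>
  mem_normalizer_of_conj_mem fun z hz => ⟨conj_mem_of_mem_normalizer hn hz.1,
    conj_mem_of_mem_normalizer (U4.norm_le_norm_cent T hn) hz.2.1, Invol.conj_mul_self hz.2.2 n⟩

namespace CO0

variable (h : CO0 G T a r)
include h

omit [Finite X] in
theorem zt : ZT T (Om T) :=
  ⟨h.syl, fun _ hz => hz.1, le_centralizer_iff.1 fun _ hz => hz.2.1, fun _ hz => hz.2.2⟩

omit [Finite X] in
theorem eq_of_norm {N : Subgroup X} (h1 : N ≤ G) (h2 : G ≤ 𝐍(N)) : N = ⊥ ∨ N = G := by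
  have := h.simple
  rcases ((normal_subgroupOf_iff_le_normalizer h1).2 h2).eq_bot_or_eq_top with e | e
  · exact Or.inl (le_bot_iff.1 (((subgroupOf_eq_bot).1 e).le_bot.trans' (le_inf le_rfl h1)))
  · exact Or.inr (le_antisymm h1 (subgroupOf_eq_top.1 e))

omit [Finite X] in
theorem not_solv : ¬ Group.IsSolvable G := fun hs =>
  haveI := h.simple
  h.nonab ⟨⟨IsSimpleGroup.comm_iff_isSolvable.2 hs⟩⟩

theorem not_le_norm {D : Subgroup X} (h1 : D ≤ T) (h0 : D ≠ ⊥) : ¬ G ≤ 𝐍(D) := fun h2 =>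
  (h.eq_of_norm (h1.trans h.le) h2).elim h0 fun e =>
    h.not_solv (e ▸ isSolvable_of_isPGroup (h.syl.isPGroup.to_le h1))

omit [Finite X] in
theorem solv_quot : haveI := h.normal; Group.IsSolvable (X ⧸ G) := by
  have := h.normal
  have h1 : IsCyclic (X ⧸ G) := by
    refine ⟨⟨(a : X ⧸ G), fun q => ?_⟩⟩
    obtain ⟨x, rfl⟩ := QuotientGroup.mk'_surjective G q
    have h2 : x ∈ (zpowers (a : X ⧸ G)).comap (QuotientGroup.mk' G) := by
      refine (sup_le (fun g hg => ?_) (zpowers_le.2 (mem_comap.2 (mem_zpowers _))) :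
        G ⊔ zpowers a ≤ _) (h.sup.ge (mem_top x))
      have e : QuotientGroup.mk' G g = 1 := (QuotientGroup.eq_one_iff g).2 hg
      rw [mem_comap, e]
      exact one_mem _
    exact h2
  exact Group.isSolvable_of_comm fun x y => (IsCyclic.commutative (α := X ⧸ G)).1.comm x y

theorem solv_of {M : Subgroup X} (ha : a ∈ M) (hG : ¬ G ≤ M) : Group.IsSolvable M := by
  have := h.normal
  have h1 : Group.IsSolvable (G ⊓ M : Subgroup X) :=
    h.sol _ (lt_of_le_of_ne inf_le_left fun e => hG (e.ge.trans inf_le_right))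
      (le_normalizer_inf le_normalizer_of_normal le_normalizer ha)
  have h2 := h.solv_quot
  have h3 : Group.IsSolvable ((G ⊓ M).subgroupOf M) := isSolvable_subgroupOf h1 M
  refine Group.isSolvable_of_ker_le_range ((G ⊓ M).subgroupOf M).subtype
    ((QuotientGroup.mk' G).comp M.subtype) fun x hx => ?_
  rw [range_subtype, mem_subgroupOf]
  exact ⟨(QuotientGroup.eq_one_iff _).1 hx, x.2⟩

theorem two_le' {D : Subgroup X} (hD : IsPGroup 2 D) : D ≤ G := by
  have := h.normal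
  obtain ⟨x, -, hx⟩ := h.syl.exists_conj_le hD le_top
  intro d hd
  have h1 := this.conj_mem _ (h.le (hx ⟨d, hd, rfl⟩)) x⁻¹
  simpa [mul_assoc] using h1

theorem inv_mem_G {s : X} (hs : s * s = 1) : s ∈ G :=
  h.two_le' (Invol.isPGroup_zpowers hs) (mem_zpowers s)

theorem not_odd : ¬ Odd (Nat.card G) := fun ho => h.not_solv (solvable_of_odd ho)

theorem T_ne_bot : T ≠ ⊥ :=
  (h.syl.mono h.le le_top).ne_bot (even_iff_two_dvd.1 (Nat.not_odd_iff_even.1 h.not_odd))

theorem Om_ne_bot : Om T ≠ ⊥ := by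
  have h1 : Nontrivial T := (nontrivial_iff_ne_bot T).2 h.T_ne_bot
  have h2 := h.syl.isPGroup.center_nontrivial
  obtain ⟨k, hk⟩ := (h.syl.isPGroup.to_subgroup (center T)).exists_card_eq
  obtain ⟨z, hz⟩ := exists_prime_orderOf_dvd_card' (G := center T) 2 (by
    rcases k with _ | k
    · exact absurd hk Finite.one_lt_card.ne'
    · rw [hk]; exact dvd_pow_self 2 (Nat.succ_ne_zero k))
  rw [← Subgroup.orderOf_coe, ← Subgroup.orderOf_coe] at hz
  exact U4.ne_bot_of_mem (x := ((z : T) : X)) ⟨(z : T).2, fun t ht =>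
    congrArg Subtype.val (mem_center_iff.1 z.2 ⟨t, ht⟩), red_mul_self hz⟩ (red_ne_one hz)

theorem Od_G : Od G = ⊥ :=
  (h.eq_of_norm (Od_le G) (le_norm_Od G)).resolve_right fun e => h.not_odd (e ▸ odd_Od G)

theorem coprime {H : Subgroup X} (hH : H ≤ G) : (Nat.card (zpowers a)).Coprime (Nat.card H) := by
  rw [Nat.card_zpowers, h.ord]
  exact (Nat.Prime.coprime_iff_not_dvd h.prime).2 fun e => h.cop (e.trans (card_dvd_of_le hH))

theorem fix' {z g : X} (hz : z * z = 1) (h1 : z ≠ 1) (hg : g ∈ G) :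
    a * z * a⁻¹ ≠ g * z * g⁻¹ := fun e => by
  have := h.normal
  have key : ∀ n : ℕ, ∃ k ∈ G, a ^ n * z * (a ^ n)⁻¹ = k * z * k⁻¹ := by
    intro n
    induction n with
    | zero => exact ⟨1, one_mem _, by simp⟩
    | succ n ih =>
      obtain ⟨k, hk, e1⟩ := ih
      refine ⟨a * k * a⁻¹ * g, mul_mem (this.conj_mem k hk a) hg, ?_⟩
      calc a ^ (n + 1) * z * (a ^ (n + 1))⁻¹ = a * (a ^ n * z * (a ^ n)⁻¹) * a⁻¹ := by group
        _ = a * k * a⁻¹ * (a * z * a⁻¹) * (a * k * a⁻¹)⁻¹ := by rw [e1]; group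
        _ = _ := by rw [e]; group
  obtain ⟨k, -, hk⟩ := Cop.exists_invariant_conj (A := zpowers a) (G := G) (H := zpowers z)
    le_normalizer_of_normal (h.coprime le_rfl) (Or.inl isSolvable_of_isMulCommutative)
    fun b hb => by
      obtain ⟨n, rfl⟩ := mem_powers_iff_mem_zpowers.2 hb
      obtain ⟨k, hk, e1⟩ := key n
      refine ⟨k, hk, ?_⟩
      rw [MonoidHom.map_zpowers, MonoidHom.map_zpowers]
      exact congrArg zpowers e1
  rw [MonoidHom.map_zpowers] at hk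
  have h2 : k * z * k⁻¹ * (k * z * k⁻¹) = 1 := Invol.conj_mul_self hz k
  have h3 : a * (k * z * k⁻¹) * a⁻¹ ∈ zpowers (k * z * k⁻¹) :=
    conj_mem_of_mem_normalizer (hk (mem_zpowers a)) (mem_zpowers _)
  rcases eq_one_or_of_mem_zpowers h2 h3 with h4 | h4
  · exact U4.conj_ne_one_iff.2 (U4.conj_ne_one_iff.2 h1) h4
  · exact U4.conj_ne_one_iff.2 h1 (h.fpf _ h2 (mul_inv_eq_iff_eq_mul.1 h4).symm)

end CO0

end CfsgLib.CO
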