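import Cfsg.Agent.Lib.CO.A1a

set_option autoImplicit false

namespace CfsgLib.CO

open Subgroup Cfsg CfsgLib.FT CfsgLib.FT.BGN CfsgLib.GW CfsgLib.Wal
open CfsgLib.FT.U4 (mem_cent1 mem_cent1' mem_cent mem_cent1_comm cent1_conj conj_mem_conj_iff
  orderOf_conj)
open scoped commutatorElement

variable {X : Type*} [Group X] [Finite X] {G T : Subgroup X} {a : X} {r : ℕ}

namespace CO1

variable (h : CO1 G T a r)
include h

theorem a2_loc {D : Subgroup X} (h1 : D ≤ T) (h0 : D ≠ ⊥) (h2 : T ≤ 𝐍(D)) (ha : a ∈ 𝐍(D)) :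
    𝐍(D) ≤ Od 𝐍(D) ⊔ 𝐍(T) := fun n hn => by
  obtain ⟨o, ho, m, hm, rfl⟩ := h.loc D h1 h0 h2 ha n hn
  exact mul_mem_sup ho hm

theorem a2_fusion (wc : WC T) {z w g : X} (hz : z ∈ Om T) (hw : w ∈ Om T) (hg : g ∈ 𝐂[z])
    (hT : g * w * g⁻¹ ∈ T) : ∃ n ∈ 𝐍(T) ⊓ 𝐂[z], n * w * n⁻¹ = g * w * g⁻¹ :=
  h.zt.fusion wc (h.a2_loc h.zt.le h.Om_ne_bot (le_normalizer.trans (aux_norm_Om T))
    (aux_norm_Om T h.anorm)) (aux_norm_Om T) hz hw hg hT

theorem a2_strong (wc : WC T) {w g : X} (hw : w ∈ Om T) (hT : g * w * g⁻¹ ∈ T) :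
    g * w * g⁻¹ ∈ Om T := by
  obtain ⟨n, hn, e⟩ := h.a2_fusion wc (one_mem _) hw (mem_cent1.2 (by simp)) hT
  exact e ▸ conj_mem_of_mem_normalizer (aux_norm_Om T hn.1) hw

/-- a conjugate commuting with `w` can be moved into `T` -/
theorem a2_move {M : Subgroup X} (hM : T ≤ M) {w k : X} (hw : w ∈ Om T) (hk : k ∈ M)
    (hc : w * (k * w * k⁻¹) = k * w * k⁻¹ * w) :
    ∃ c ∈ M, c ∈ 𝐂[w] ∧ c * k * w * (c * k)⁻¹ ∈ T := by
  obtain ⟨c, hc1, h2⟩ := (h.syl.mono (le_inf hM (h.zt.le_cent1 hw)) le_top).exists_conj_le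
    (Invol.isPGroup_zpowers (Invol.conj_mul_self hw.2.2 k))
    (zpowers_le.2 (mem_inf.2 ⟨mul_mem (mul_mem hk (hM hw.1)) (inv_mem hk), mem_cent1'.2 hc⟩))
  refine ⟨c, hc1.1, hc1.2, ?_⟩
  have := h2 ⟨_, mem_zpowers _, rfl⟩
  simpa [mul_assoc] using this

theorem a2_cent (wc : WC T) {z : X} (hz : z ∈ Om T) (h1 : z ≠ 1) :
    Group.IsSolvable 𝐂[z] ∧ 𝐂[z] ≤ Ut z ⊔ 𝐍(T) := by
  set Y : Subgroup X := Om T ⊓ 𝐂(𝐍(T) ⊓ 𝐂[z]) with hY
  have hzY : z ∈ Y := ⟨hz, fun n hn => mem_cent1.1 hn.2⟩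
  have hY0 : Y ≠ ⊥ := U4.ne_bot_of_mem hzY h1
  have hYT : Y ≤ T := inf_le_left.trans h.zt.le
  have hY2 : IsPGroup 2 Y := h.syl.isPGroup.to_le hYT
  have hTY : T ≤ 𝐂(Y) := h.zt.cent.trans (centralizer_le inf_le_left)
  have haY : a ∈ 𝐍(Y) := mem_normalizer_of_conj_mem fun w hw =>
    ⟨conj_mem_of_mem_normalizer (aux_norm_Om T h.anorm) hw.1, fun n hn => by
      have e := h.cz n (aux_norm_Om T hn.1) w hw.1
      rw [hw.2 n hn, mul_inv_cancel_right] at e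
      exact mul_inv_eq_iff_eq_mul.1 e.symm⟩
  have hCY : 𝐂(Y) ≤ 𝐂[z] := U4.cent_le_cent1 hzY
  have hzs : ∀ w ∈ Y, ∀ g ∈ 𝐂[z], ⁅g, w⁆ ∈ Ut z := by
    intro w hw g hg
    by_cases hw1 : w = 1
    · rw [hw1, commutatorElement_one_right]
      exact one_mem _
    refine RC.zstar_amb (h.zt.le_cent1 hz (hYT hw)) (h.zt.ord hw.1 hw1) (fun k hk hc => ?_) hg
    obtain ⟨c, hc1, hc2, h2⟩ := h.a2_move (h.zt.le_cent1 hz) hw.1 hk hc
    obtain ⟨n, hn, e⟩ := h.a2_fusion wc hz hw.1 (mul_mem hc1 hk) h2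
    rw [hw.2 n hn, mul_inv_cancel_right] at e
    calc k * w * k⁻¹ = c⁻¹ * (c * k * w * (c * k)⁻¹) * c⁻¹⁻¹ := by group
      _ = w := by rw [← e]; exact U4.conj_eq_of_mem_cent1 (inv_mem hc2)
  have hle : 𝐂[z] ≤ Ut z ⊔ 𝐂(Y) := fun g hg => by
    obtain ⟨n, hn, c, hc, rfl⟩ := Cop.exists_mul_centralizer_of_commutator_mem (A := Y) (N := Ut z)
      ((hYT.trans (h.zt.le_cent1 hz)).trans (cent_le_norm_Ut z))
      (Cop.coprime_card_of_isPGroup (Nat.coprime_two_right.2 (odd_Ut z)) hY2).symm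
      (Or.inr (solvable_Ut z)) fun w hw => hzs w hw g hg
    exact mul_mem_sup hn hc
  have hsN : Group.IsSolvable 𝐍(Y) := h.solv_of haY (h.not_le_norm hYT hY0)
  have hs : Group.IsSolvable 𝐂[z] := isSolvable_of_le (isSolvable_sup (hCY.trans (cent_le_norm_Ut z))
    (isSolvable_of_le hsN (U4.cent_le_norm Y)) (solvable_Ut z)) (by rw [sup_comm]; exact hle)
  have hO : Od 𝐍(Y) ≤ 𝐂(Y) := U4.le_cent_of_inf_eq_bot (Od_le _)
    (le_normalizer.trans (le_norm_Od _)) (Od_inf_eq_bot hY2)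
  have hO2 : Od 𝐍(Y) ≤ Ut z := SE.le_piCoreOf_of_cent (R := Y) hs hY2
    (hYT.trans (h.zt.le_cent1 hz)) (hO.trans hCY) (Nat.coprime_two_right.2 (odd_Od _)) hO
    (inf_le_right.trans ((U4.cent_le_norm Y).trans (le_norm_Od _)))
  refine ⟨hs, hle.trans (sup_le le_sup_left ((U4.cent_le_norm Y).trans
    ((h.a2_loc hYT hY0 (hTY.trans (U4.cent_le_norm Y)) haY).trans (sup_le_sup_right hO2 _))))⟩

theorem a2_fused (wc : WC T) {z : X} (hz : z ∈ Om T) (h1 : z ≠ 1) :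
    ∃ g ∈ G, g * z * g⁻¹ ∈ Om T ∧ g * z * g⁻¹ ≠ z := by
  by_contra hn
  push Not at hn
  have h2 : G ≤ 𝐂[z] := fun g hg => by
    have h3 := RC.zstar_amb (h.le hz.1) (h.zt.ord hz h1) (fun k hk hc => ?_) hg
    · rw [h.Od_G, mem_bot, mul_inv_eq_one] at h3
      exact U4.mem_cent1_of_conj_eq h3
    obtain ⟨c, hc1, hc2, h2⟩ := h.a2_move h.le hz hk hc
    have e := hn _ (mul_mem hc1 hk) (h.a2_strong wc hz h2)
    calc k * z * k⁻¹ = c⁻¹ * (c * k * z * (c * k)⁻¹) * c⁻¹⁻¹ := by group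
      _ = z := by rw [e]; exact U4.conj_eq_of_mem_cent1 (inv_mem hc2)
  refine h.not_le_norm (D := zpowers z) (zpowers_le.2 hz.1) (by simpa using h1) ?_
  rw [← U4.cent_zpowers] at h2
  exact h2.trans (U4.cent_le_norm _)

theorem a2_eight (wc : WC T) : 8 ≤ Nat.card (Om T) := by
  classical
  obtain ⟨z, hz, h1⟩ := U4.exists_ne_one h.Om_ne_bot
  obtain ⟨g, hg, hw, hne⟩ := h.a2_fused wc hz h1
  have haZ := aux_norm_Om T h.anorm
  have hw1 : g * z * g⁻¹ ≠ 1 := U4.conj_ne_one_iff.2 h1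
  have f1 : a * z * a⁻¹ ≠ z := by simpa using h.fix z 1 hz.2.2 h1 (one_mem _)
  have f2 : a * z * a⁻¹ ≠ g * z * g⁻¹ := h.fix z g hz.2.2 h1 hg
  have f3 : a * (g * z * g⁻¹) * a⁻¹ ≠ g * z * g⁻¹ := by
    simpa using h.fix _ 1 hw.2.2 hw1 (one_mem _)
  have f4 : a * (g * z * g⁻¹) * a⁻¹ ≠ z := by
    have := h.fix _ g⁻¹ hw.2.2 hw1 (inv_mem hg)
    simpa [mul_assoc] using this
  have f5 : a * z * a⁻¹ ≠ a * (g * z * g⁻¹) * a⁻¹ := fun e =>
    hne (mul_left_cancel (mul_right_cancel e)).symm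
  have f6 : a * z * a⁻¹ ≠ 1 := U4.conj_ne_one_iff.2 h1
  have f7 : a * (g * z * g⁻¹) * a⁻¹ ≠ 1 := U4.conj_ne_one_iff.2 hw1
  have hza := conj_mem_of_mem_normalizer haZ hz
  have hwa := conj_mem_of_mem_normalizer haZ hw
  generalize a * (g * z * g⁻¹) * a⁻¹ = w' at *
  generalize g * z * g⁻¹ = w at *
  generalize a * z * a⁻¹ = z' at *
  have h5 : 5 ≤ Nat.card (Om T) := by
    have e : ({1, z, w, z', w'} : Finset X).card = 5 := by
      rw [Finset.card_insert_of_notMem (by simp [Ne.symm, *]),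
        Finset.card_insert_of_notMem (by simp [Ne.symm, *]),
        Finset.card_insert_of_notMem (by simp [Ne.symm, *]), Finset.card_pair f5]
    rw [← e, ← Set.ncard_coe_finset, ← SetLike.coe_sort_coe, Nat.card_coe_set_eq]
    refine Set.ncard_le_ncard (fun x hx => ?_)
    simp only [Finset.coe_insert, Finset.coe_singleton, Set.mem_insert_iff,
      Set.mem_singleton_iff] at hx
    rcases hx with rfl | rfl | rfl | rfl | rfl
    exacts [one_mem _, hz, hw, hza, hwa]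
  obtain ⟨k, hk⟩ := h.zt.two.exists_card_eq
  rw [hk] at h5 ⊢
  have : 3 ≤ k := by
    by_contra hk3
    have : k ≤ 2 := by omega
    have := Nat.pow_le_pow_right (by norm_num : 0 < 2) this
    omega
  exact Nat.pow_le_pow_right (by norm_num : 0 < 2) this

theorem false_of_wc (wc : WC T) : False := by
  have := h.normal
  obtain ⟨W, hW, hNW, hUW⟩ := h.zt.exists_over (h.a2_eight wc) (aux_norm_Om T)
    fun z hz h1 => (h.a2_cent wc hz h1).1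
  have hG : ¬ G ≤ W ⊔ 𝐍(T) := fun hle => by
    have h1 : G ≤ 𝐍(W) := hle.trans (sup_le le_normalizer hNW)
    have h2 : W ⊓ G = ⊥ := (h.eq_of_norm inf_le_right (le_normalizer_inf h1 le_normalizer)
      ).resolve_right fun e => h.not_odd (hW.of_dvd_nat (card_dvd_of_le (e.ge.trans inf_le_left)))
    have h3 : W ≤ 𝐂(G) := U4.le_cent_of_inf_eq_bot le_normalizer_of_normal h1 h2
    exact h.not_le_norm le_rfl h.T_ne_bot (hle.trans (sup_le
      ((h3.trans (centralizer_le h.le)).trans (U4.cent_le_norm T)) le_rfl))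
  obtain ⟨g, hg, hgM⟩ := SetLike.not_le_iff_exists.1 hG
  obtain ⟨z, hz, h1⟩ := U4.exists_ne_one h.Om_ne_bot
  obtain ⟨s, hs, e⟩ := h.zt.one_class (M := W ⊔ 𝐍(T)) (le_normalizer.trans le_sup_right)
    (fun y hy hy1 => (h.a2_cent wc hy hy1).2.trans (sup_le_sup_right (hUW y hy hy1) _))
    (fun y hy k hk => by
      obtain ⟨n, hn, e⟩ := h.a2_fusion wc (one_mem _) hy (mem_cent1.2 (by simp)) hk
      exact ⟨n, mem_sup_right hn.1, e⟩)
    (fun y hy k hk => h.a2_strong wc hy hk)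
    (conj_mem_of_mem_normalizer (aux_norm_Om T h.anorm) hz) (U4.conj_ne_one_iff.2 h1) hz h1 hgM
  refine h.fix z (s⁻¹ * g) hz.2.2 h1 (mul_mem (inv_mem (h.inv_mem_G hs)) hg) ?_
  calc a * z * a⁻¹ = s⁻¹ * (s * (a * z * a⁻¹) * s⁻¹) * s := by group
    _ = _ := by rw [e]; group

end CO1

end CfsgLib.CO
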