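import Cfsg.Agent.Lib.CO.B0
import Cfsg.Agent.Lib.CO.B1ax

set_option autoImplicit false

namespace CfsgLib.CO

open Subgroup Cfsg CfsgLib.FT CfsgLib.FT.BGN CfsgLib.GW CfsgLib.Wal
open CfsgLib.FT.U4 (mem_cent1 mem_cent1' mem_cent mem_cent1_comm cent1_conj conj_mem_conj_iff
  orderOf_conj)
open scoped commutatorElement

variable {X : Type*} [Group X] [Finite X] {G T : Subgroup X} {a : X} {r : ℕ}

open B1a

namespace FFc

variable {X0 L E : Subgroup X} (hT : IsSylowIn 2 T ⊤) (hf : FFc T X0 L E)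
include hT hf

/-- Every element of `V` outside `C_V(E)` is conjugate to `z0` modulo `C_V(L)`. -/
theorem trans1 {l z0 w : X} (hl : l ∈ L) (hn : l ∉ 𝐍(Om T)) (hz : z0 ∈ Om T) (hzL : z0 ∉ 𝐂(L))
    (hw : w ∈ VL T L) (hwE : w ∉ 𝐂(E)) :
    ∃ g ∈ L, ∃ v ∈ VL T L ⊓ 𝐂(L), w = g * z0 * g⁻¹ * v := by
  have hV := hf.V_el hT
  have hzV : z0 ∈ VL T L := Om_le_VL hz
  have hzE : z0 ∈ 𝐂(E) := le_centralizer_iff.1 hf.EZ hz
  obtain ⟨x, hx, b, hb, rfl⟩ := hf.split hT hl hn hw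
  have hbE : b ∉ 𝐂(E) := fun h => hwE (mul_mem hx.2 h)
  have hb' : l⁻¹ * b * l⁻¹⁻¹ ∈ VL T L ⊓ 𝐂(E) := by
    rw [cj_eq' hl] at hb
    obtain ⟨y, hy, rfl⟩ := hb
    simpa [mul_assoc] using hy
  have hz' : l⁻¹ * z0 * l⁻¹⁻¹ ∈ l⁻¹ •ᶜ Om T := cj_mem hz
  obtain ⟨e, he, v, hv, h1⟩ := hf.onto hT (inv_mem hl) (fun h => hn (by simpa using inv_mem h)) hz'
    (conj_notin (inv_mem hl) hzL) hb'
  have h2 := hf.conj_eq hT (le_VL (inv_mem hl) hz') e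
  have hg : l * e * l⁻¹ ∈ L := mul_mem (mul_mem hl (hf.EL he)) (inv_mem hl)
  -- `z2 = z0 ^ (e ^ l) = z0 b v⁻¹`
  have h3 : l * e * l⁻¹ * z0 * (l * e * l⁻¹)⁻¹ = z0 * b * v⁻¹ := by
    have h4 : ⁅l⁻¹ * z0 * l⁻¹⁻¹, e⁆ = l⁻¹ * b * l⁻¹⁻¹ * v⁻¹ := by rw [← h1]; group
    have h5 := conj_of_cent hl (inv_mem hv.2)
    calc l * e * l⁻¹ * z0 * (l * e * l⁻¹)⁻¹ = l * (e * (l⁻¹ * z0 * l⁻¹⁻¹) * e⁻¹) * l⁻¹ := by group
      _ = z0 * b * (l * v⁻¹ * l⁻¹) := by rw [h2, h4]; group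
      _ = _ := by rw [h5]
  have hvE : v ∈ 𝐂(E) := centralizer_le hf.EL hv.2
  have hz2E : z0 * b * v⁻¹ ∉ 𝐂(E) := fun h => hbE (by
    simpa using mul_mem (inv_mem hzE) (mul_mem h hvE))
  have hz2 : z0 * b * v⁻¹ ∈ (l * e * l⁻¹) •ᶜ Om T := by rw [← h3]; exact cj_mem hz
  have hgn : l * e * l⁻¹ ∉ 𝐍(Om T) := fun h => hz2E (by
    rw [conj_norm h] at hz2; exact le_centralizer_iff.1 hf.EZ hz2)
  have hy : v * z0⁻¹ * x ∈ VL T L ⊓ 𝐂(E) :=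
    mul_mem (mul_mem ⟨hv.1, hvE⟩ (inv_mem ⟨hzV, hzE⟩)) hx
  obtain ⟨e2, he2, v2, hv2, h6⟩ := hf.onto hT hg hgn hz2
    (fun h => hz2E (centralizer_le hf.EL h)) hy
  have h7 := hf.conj_eq hT (le_VL hg hz2) e2
  refine ⟨e2 * (l * e * l⁻¹), mul_mem (hf.EL he2) hg, v2, hv2, ?_⟩
  have h8 : e2 * (l * e * l⁻¹) * z0 * (e2 * (l * e * l⁻¹))⁻¹ =
      e2 * (l * e * l⁻¹ * z0 * (l * e * l⁻¹)⁻¹) * e2⁻¹ := by group
  rw [h8, h3, h7, mul_assoc _ _ v2, h6]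
  have c1 : z0 * b = b * z0 := hV.comm hzV hb.1
  have c2 : x * b = b * x := hV.comm hx.1 hb.1
  rw [c1, c2]; group

/-- `L ⊓ 𝐍(Z)` is transitive on the nontrivial elements of `C_V(E) / C_V(L)`. -/
theorem trans2 {l z0 x : X} (hl : l ∈ L) (hn : l ∉ 𝐍(Om T)) (hz : z0 ∈ Om T) (hzL : z0 ∉ 𝐂(L))
    (hx : x ∈ VL T L ⊓ 𝐂(E)) (hxL : x ∉ 𝐂(L)) :
    ∃ g ∈ L, g ∈ 𝐍(Om T) ∧ ∃ v ∈ VL T L ⊓ 𝐂(L), x = g * z0 * g⁻¹ * v := by
  have hw := cj_mem' hl hx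
  have hwE : l * x * l⁻¹ ∉ 𝐂(E) := fun h => conj_notin hl hxL (hf.meet hT hl hn hw.1 h hw.2)
  obtain ⟨g, hg, v, hv, h⟩ := hf.trans1 hT hl hn hz hzL hw.1 hwE
  have hg' : l⁻¹ * g ∈ L := mul_mem (inv_mem hl) hg
  have h1 : x = l⁻¹ * g * z0 * (l⁻¹ * g)⁻¹ * v := by
    have h2 := conj_of_cent (inv_mem hl) hv.2
    calc x = l⁻¹ * (l * x * l⁻¹) * l := by group
      _ = l⁻¹ * g * z0 * (l⁻¹ * g)⁻¹ * (l⁻¹ * v * l⁻¹⁻¹) := by rw [h]; group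
      _ = _ := by rw [h2]
  refine ⟨l⁻¹ * g, hg', ?_, v, hv, h1⟩
  have h3 : l⁻¹ * g * z0 * (l⁻¹ * g)⁻¹ ∈ 𝐂((1 : X) •ᶜ E) := by
    rw [cj_one]
    have : l⁻¹ * g * z0 * (l⁻¹ * g)⁻¹ = x * v⁻¹ := by rw [h1]; group
    rw [this]
    exact mul_mem hx.2 (inv_mem (centralizer_le hf.EL hv.2))
  have h4 := hf.pt_eq' hT hg' (one_mem L) (cj_mem hz) (conj_notin hg' hzL) h3
  rw [cj_one] at h4
  exact norm_iff.2 h4.symm

end FFc

theorem CO1.exists_fixed (h : CO1 G T a r) {X0 L E : Subgroup X} (hf : FFc T X0 L E) {l : X}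
    (hl : l ∈ L) (hn : l ∉ 𝐍(Om T)) :
    ∃ z ∈ Om T, z ∉ 𝐂(L) ∧ ∀ g ∈ L, g ∈ 𝐍(Om T) → g * z * g⁻¹ = z := by
  have hT := h.syl
  by_contra hc
  push Not at hc
  have hZ := Om_el T
  have ha : a ∈ 𝐍(Om T) := norm_le_norm_Om T h.anorm
  have hfix : ∀ z ∈ Om T, (∀ g ∈ L, g ∈ 𝐍(Om T) → g * z * g⁻¹ = z) → z ∈ 𝐂(L) := by
    intro z hz hg
    by_contra hzL
    obtain ⟨g, hgL, hgN, hne⟩ := hc z hz hzL
    exact hne (hg g hgL hgN)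
  have h0 : ∀ y ∈ Om T ⊓ 𝐂(L), a * y * a⁻¹ ∈ Om T ⊓ 𝐂(L) := by
    intro y hy
    refine ⟨norm_conj_mem ha hy.1, hfix _ (norm_conj_mem ha hy.1) fun g hgL hgN => ?_⟩
    rw [← h.cz g hgN y hy.1, conj_of_cent hgL hy.2]
  obtain ⟨z, hz, hzL⟩ := hf.Z_notle
  have haz := norm_conj_mem ha hz
  have hazL : a * z * a⁻¹ ∉ 𝐂(L) := fun h1 => hzL (hfix z hz fun g hgL hgN => by
    have := h.cz g hgN z hz
    rw [conj_of_cent hgL h1] at this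
    exact mul_left_cancel (mul_right_cancel this))
  obtain ⟨k, hk, hkN, v, hv, hv'⟩ := hf.trans2 hT hl hn hz hzL
    ⟨Om_le_VL haz, le_centralizer_iff.1 hf.EZ haz⟩ hazL
  have hvZ : v ∈ Om T := by
    have : v = (k * z * k⁻¹)⁻¹ * (a * z * a⁻¹) := by rw [hv']; group
    rw [this]; exact mul_mem (inv_mem (norm_conj_mem hkN hz)) haz
  let φ : (Om T ⊓ 𝐂(L) : Subgroup X) → (Om T ⊓ 𝐂(L) : Subgroup X) :=
    fun y => ⟨y * (a * y * a⁻¹), mul_mem y.2 (h0 y y.2)⟩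
  have hinj : Function.Injective φ := by
    rintro ⟨y, hy⟩ ⟨y', hy'⟩ hyy
    have e1 : y * (a * y * a⁻¹) = y' * (a * y' * a⁻¹) := congrArg Subtype.val hyy
    have hw : y'⁻¹ * y ∈ Om T := mul_mem (inv_mem hy'.1) hy.1
    have e2 : y'⁻¹ * y = a * (y'⁻¹ * y) * a⁻¹ := by
      have e3 : y'⁻¹ * y = a * (y' * y⁻¹) * a⁻¹ := by
        calc y'⁻¹ * y = y'⁻¹ * (y * (a * y * a⁻¹)) * (a * y * a⁻¹)⁻¹ := by group
          _ = _ := by rw [e1]; group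
      rw [hZ.inv hy.1] at e3
      rw [hZ.inv hy'.1] at e3 ⊢
      exact e3
    have e4 := h.fpf _ (hZ _ hw) (by rw [eq_mul_inv_iff_mul_eq] at e2; exact e2)
    exact Subtype.ext (inv_mul_eq_one.1 e4).symm
  obtain ⟨⟨y, hy⟩, hyv⟩ := Finite.surjective_of_injective hinj ⟨v, hvZ, hv.2⟩
  have e1 : y * (a * y * a⁻¹) = v := congrArg Subtype.val hyv
  have hLG : L ≤ G := (hf.gen hT hl hn).ge.trans (sup_le (sup_le (h.two_le _ hf.mx.bad.1)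
    (h.two_le _ hf.ee.el.isPGroup)) (h.two_le _ (hf.eel hl).el.isPGroup))
  refine h.fix (z * y) k (hZ _ (mul_mem hz hy.1)) (fun h1 => hzL ?_) (hLG hk) ?_
  · rw [eq_inv_of_mul_eq_one_left h1]; exact inv_mem hy.2
  · have e2 := hZ _ (h0 y hy).1
    have e3 := conj_of_cent hk hy.2
    calc a * (z * y) * a⁻¹ = a * z * a⁻¹ * (a * y * a⁻¹) := by group
      _ = k * z * k⁻¹ * y * (a * y * a⁻¹ * (a * y * a⁻¹)) := by rw [hv', ← e1]; group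
      _ = k * z * k⁻¹ * (k * y * k⁻¹) := by rw [e2, e3, mul_one]
      _ = _ := by group

theorem CO1.seed (h : CO1 G T a r) {X0 L E : Subgroup X} (hf : FFc T X0 L E) :
    ∃ (W P A : Subgroup X) (u z0 d : X), Seed T W P A u z0 d := by
  have hT := h.syl
  have hV := hf.V_el hT
  obtain ⟨l, hl, hn⟩ := SetLike.not_le_iff_exists.1 hf.nN
  obtain ⟨z0, hz, hzL, hfix⟩ := h.exists_fixed hf hl hn
  have hzV : z0 ∈ VL T L := Om_le_VL hz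
  have hA : ∀ x ∈ VL T L ⊓ 𝐂(E), x ∉ 𝐂(L) → z0 * x ∈ 𝐂(L) := by
    intro x hx hxL
    obtain ⟨g, hg, hgN, v, hv, h1⟩ := hf.trans2 hT hl hn hz hzL hx hxL
    rw [h1, hfix g hg hgN, ← mul_assoc, hV z0 hzV, one_mul]
    exact hv.2
  have hz1 : l * z0 * l⁻¹ ∈ l •ᶜ Om T := cj_mem hz
  have hz1V := le_VL hl hz1
  have hz1L := conj_notin hl hzL
  have hz1E : l * z0 * l⁻¹ ∉ 𝐂(E) := fun h1 =>
    hz1L (hf.meet hT hl hn hz1V h1 (le_centralizer_iff.1 (hf.ECl l) hz1))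
  obtain ⟨e, he, heV⟩ : ∃ e ∈ E, e ∉ 𝐂(VL T L) := by
    by_contra h1
    push Not at h1
    exact hz1E (le_centralizer_iff.1 h1 hz1V)
  obtain ⟨u, hu⟩ : ∃ u, u = ⁅l * z0 * l⁻¹, e⁆ := ⟨_, rfl⟩
  have huA : u ∈ VL T L ⊓ 𝐂(E) := hu ▸ hf.comm_mem hT hz1V he
  have huL : u ∉ 𝐂(L) := hu ▸ hf.comm_notin hT hl hn hz1 hz1L he heV
  have huu := hV u huA.1
  -- `[z1, E] = ⟨u⟩`
  have h1 : ∀ e' ∈ E, ⁅l * z0 * l⁻¹, e'⁆ = 1 ∨ ⁅l * z0 * l⁻¹, e'⁆ = u := by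
    intro e' he'
    by_cases h2 : e' ∈ 𝐂(VL T L)
    · exact Or.inl (commutatorElement_eq_one_iff_mul_comm.2 (mem_cent.1 h2 _ hz1V))
    right
    have hc := hf.comm_mem hT hz1V he'
    have h3 := mul_mem (inv_mem (hA u huA huL))
      (hA _ hc (hf.comm_notin hT hl hn hz1 hz1L he' h2))
    have h4 := hf.comm_mul hT hz1V he he'
    rw [← hu] at h4
    have h5 : (z0 * u)⁻¹ * (z0 * ⁅l * z0 * l⁻¹, e'⁆) = ⁅l * z0 * l⁻¹, e * e'⁆ := by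
      rw [h4, mul_inv_rev, hV.inv huA.1]; group
    rw [h5] at h3
    have h6 : e * e' ∈ 𝐂(VL T L) := by
      by_contra h6
      exact hf.comm_notin hT hl hn hz1 hz1L (mul_mem he he') h6 h3
    rw [commutatorElement_eq_one_iff_mul_comm.2 (mem_cent.1 h6 _ hz1V)] at h4
    rw [eq_inv_of_mul_eq_one_right h4.symm, hV.inv huA.1]
  -- `[V, E] = ⟨u⟩`
  have h2 : ∀ v ∈ VL T L, ∀ e' ∈ E, e' * v * e'⁻¹ = v ∨ e' * v * e'⁻¹ = v * u := by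
    intro v hv e' he'
    obtain ⟨x, hx, y, hy, rfl⟩ := hf.split hT hl hn hv
    have e1 := conj_of_cent he' hx.2
    have e2 : e' * (x * y) * e'⁻¹ = x * (e' * y * e'⁻¹) := by
      calc e' * (x * y) * e'⁻¹ = e' * x * e'⁻¹ * (e' * y * e'⁻¹) := by group
        _ = _ := by rw [e1]
    by_cases hyL : y ∈ 𝐂(L)
    · left; rw [e2, conj_of_cent (hf.EL he') hyL]
    have hy' : l⁻¹ * y * l⁻¹⁻¹ ∈ VL T L ⊓ 𝐂(E) := by
      rw [FFc.cj_eq' hl] at hy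
      obtain ⟨y, hy, rfl⟩ := hy
      simpa [mul_assoc] using hy
    have e3 := hA _ hy' (conj_notin (inv_mem hl) hyL)
    obtain ⟨v0, hv0⟩ : ∃ v0, v0 = z0 * (l⁻¹ * y * l⁻¹⁻¹) := ⟨_, rfl⟩
    rw [← hv0] at e3
    have e4 : y = v0 * (l * z0 * l⁻¹) := by
      have e5 := conj_of_cent hl e3
      have e6 : l * z0 * l⁻¹ * y = y * (l * z0 * l⁻¹) := hV.comm hz1V hy.1
      have e7 := hV _ hz1V
      calc y = y * (l * z0 * l⁻¹) * (l * z0 * l⁻¹) := by rw [mul_assoc, e7, mul_one]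
        _ = l * v0 * l⁻¹ * (l * z0 * l⁻¹) := by rw [← e6, hv0]; group
        _ = _ := by rw [e5]
    have e8 : e' * y * e'⁻¹ = y * ⁅l * z0 * l⁻¹, e'⁆ := by
      calc e' * y * e'⁻¹ = e' * v0 * e'⁻¹ * (e' * (l * z0 * l⁻¹) * e'⁻¹) := by rw [e4]; group
        _ = _ := by rw [conj_of_cent (hf.EL he') e3, hf.conj_eq hT hz1V, ← mul_assoc, ← e4]
    rw [e2, e8]
    rcases h1 e' he' with h3 | h3
    · left; rw [h3, mul_one]
    · right; rw [h3, mul_assoc]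
  have hu' := FFc.cj_mem' hl huA
  have hu'L := conj_notin hl huL
  have hu'E : l * u * l⁻¹ ∉ 𝐂(E) := fun h3 => hu'L (hf.meet hT hl hn hu'.1 h3 hu'.2)
  have hne : u ≠ l * u * l⁻¹ := fun h3 => hu'E (h3 ▸ huA.2)
  have hu1 : u ≠ 1 := fun h3 => huL (h3 ▸ one_mem _)
  have h4 : Four u (l * u * l⁻¹) :=
    hV.four huA.1 hu'.1 hu1 (fun h3 => hu'L (h3 ▸ one_mem _)) hne
  have hWV : V u (l * u * l⁻¹) ≤ VL T L := V_le huA.1 hu'.1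
  have hXW : X0 ≤ 𝐂(V u (l * u * l⁻¹)) := le_centralizer_iff.1 (hWV.trans (hf.V_le_cent hT))
  have hN : L ≤ 𝐍(V u (l * u * l⁻¹)) := by
    refine (hf.gen hT hl hn).ge.trans (sup_le (sup_le (hXW.trans (cent_le_norm' _)) ?_) ?_)
    · intro e' he'
      refine mem_normalizer_fintype fun w hw => ?_
      rcases h2 w (hWV hw) e' he' with h3 | h3 <;> rw [h3]
      · exact hw
      · exact mul_mem hw (t_mem_V _ _)
    · rintro _ ⟨e', he', rfl⟩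
      refine mem_normalizer_fintype fun w hw => ?_
      have e1 : (MulAut.conj l).toMonoidHom e' * w * ((MulAut.conj l).toMonoidHom e')⁻¹ =
          l * (e' * (l⁻¹ * w * l⁻¹⁻¹) * e'⁻¹) * l⁻¹ := by
        simp only [MulEquiv.coe_toMonoidHom, MulAut.conj_apply]; group
      rw [e1]
      rcases h2 _ (VL_conj (inv_mem hl) (hWV hw)) e' he' with h3 | h3 <;> rw [h3]
      · have : l * (l⁻¹ * w * l⁻¹⁻¹) * l⁻¹ = w := by group
        rw [this]; exact hw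
      · have : l * (l⁻¹ * w * l⁻¹⁻¹ * u) * l⁻¹ = w * (l * u * l⁻¹) := by group
        rw [this]; exact mul_mem hw (s_mem_V _ _)
  refine ⟨V u (l * u * l⁻¹), X0 ⊔ E, E, u, z0, l,
    { pP := IsPGroup.to_sup_of_normal_left' hf.mx.bad.1 hf.ee.el.isPGroup hf.ee.norm
      WP := (hWV.trans (hf.V_le hT)).trans le_sup_left
      PN := (sup_le hf.XL hf.EL).trans hN
      elW := hV.mono hWV
      cardW := h4.card_V
      uW := t_mem_V _ _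
      u1 := hu1
      Pu := sup_le ((le_centralizer_iff.1 (hf.V_le_cent hT)).trans (U4.cent_le_cent1 huA.1))
        fun x hx => mem_cent1.2 (mem_cent.1 huA.2 x hx)
      AP := le_sup_right
      elA := hf.ee.el
      cardA := hf.ee.card
      AW := fun h3 => hu'E (le_centralizer_iff.1 h3 (s_mem_V _ _))
      zZ := hz
      Pz := (sup_le hf.XZ hf.EZ).trans (U4.cent_le_cent1 hz)
      dN := hN hl
      du := fun h3 => hne (by rw [mem_cent1.1 h3, mul_inv_cancel_right])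
      dz := mem_cent1.2 (mem_cent.1 (hA u huA huL) l hl)
      max := fun D hD => (hf.mx.max D hD).trans (card_le_of_le ?_) }⟩
  exact hf.mx.wb.ge.trans (WB_mono (le_inf le_sup_left hXW))

end CfsgLib.CO
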