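import Cfsg.Agent.Lib.CO.B0

set_option autoImplicit false

namespace CfsgLib.CO

open Subgroup Cfsg CfsgLib.FT CfsgLib.FT.BGN CfsgLib.GW CfsgLib.Wal
open CfsgLib.FT.U4 (mem_cent1 mem_cent1' mem_cent mem_cent1_comm cent1_conj conj_mem_conj_iff
  orderOf_conj)
open scoped commutatorElement

variable {X : Type*} [Group X] [Finite X] {G T : Subgroup X} {a : X} {r : ℕ}

/-- Thompson's replacement argument for large elementary abelian subgroups. -/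
theorem el_replacement {P V E : Subgroup X} {k : ℕ} (hP : IsPGroup 2 P) (hVP : V ≤ P)
    (hN : P ≤ 𝐍(V)) (hV : El V) (hb : ∀ B, El B → B ≤ P → B ≤ 𝐂(V) → Nat.card B ≤ k)
    (hE : El E) (hEP : E ≤ P) (hk : k ≤ Nat.card E) (hEV : ¬ E ≤ 𝐂(V)) :
    ∃ A, El A ∧ A ≤ P ∧ k ≤ Nat.card A ∧ ¬ A ≤ 𝐂(V) ∧
      ∀ v ∈ V, ∀ a ∈ A, ∀ b ∈ A, b * ⁅a, v⁆ = ⁅a, v⁆ * b := by
  obtain ⟨A, ⟨hA, hAP, hAk, hAV⟩, hmax⟩ := Set.exists_max_image
    {A : Subgroup X | El A ∧ A ≤ P ∧ k ≤ Nat.card A ∧ ¬ A ≤ 𝐂(V)}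
    (fun A => Nat.card (A ⊓ V : Subgroup X)) (Set.toFinite _) ⟨E, hE, hEP, hk, hEV⟩
  refine ⟨A, hA, hAP, hAk, hAV, fun v hv => ?_⟩
  by_contra hcon
  have hAc : ∀ x ∈ A, ∀ y ∈ A, x * y = y * x := fun x hx y hy => hA.comm hx hy
  have hVc' : ∀ x ∈ V, ∀ y ∈ V, x * y = y * x := fun x hx y hy => hV.comm hx hy
  have hcj : ∀ a ∈ A, ∀ v ∈ V, a * v * a⁻¹ ∈ V := fun a ha v hv =>
    (mem_normalizer_iff.1 (hN (hAP ha)) v).1 hv
  let M : Subgroup X := closure {m | ∃ a ∈ A, m = ⁅a, v⁆}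
  have hMK : M ≤ ⁅A, V⁆ := by
    rw [closure_le]
    rintro _ ⟨a, ha, rfl⟩
    exact commutator_mem_commutator ha hv
  have hKV : ⁅A, V⁆ ≤ V := commutator_le.2 fun a ha v hv => mul_mem (hcj a ha v hv) (inv_mem hv)
  have hMV : M ≤ V := hMK.trans hKV
  have hMA : ¬ M ≤ A := by
    intro hMA
    apply hcon
    intro a ha b hb
    exact hAc _ hb _ (hMA (subset_closure ⟨a, ha, rfl⟩))
  let D : Subgroup X := A ⊓ centralizer (M : Set X)
  have hDM : D ≤ centralizer (M : Set X) := inf_le_right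
  have hstar : El (D ⊔ M) := sup_comm M D ▸ (hV.mono hMV).sup (hA.mono inf_le_left) hDM
  have hAVD : A ⊓ V ≤ D := fun x hx => ⟨hx.1, fun m hm => hVc' m (hMV hm) x hx.2⟩
  have hinf : D ⊓ M = A ⊓ M := by
    refine le_antisymm (inf_le_inf_right _ inf_le_left) fun x hx => ⟨hAVD ⟨hx.1, hMV hx.2⟩, hx.2⟩
  have hidx : D.relIndex A ≤ A.relIndex M := by
    let ψ : A ⧸ D.subgroupOf A → M ⧸ A.subgroupOf M := fun q =>
      ((⟨⁅((q.out : A) : X), v⁆, subset_closure ⟨_, q.out.2, rfl⟩⟩ : M) : M ⧸ A.subgroupOf M)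
    refine Nat.card_le_card_of_injective ψ fun q q' hq => ?_
    have h1 : ⁅((q.out : A) : X), v⁆⁻¹ * ⁅((q'.out : A) : X), v⁆ ∈ A :=
      mem_subgroupOf.mp (QuotientGroup.eq.mp hq)
    rw [← q.out_eq', ← q'.out_eq', QuotientGroup.eq]
    generalize q.out = a, q'.out = b at h1 ⊢
    obtain ⟨a, ha⟩ := a
    obtain ⟨b, hb⟩ := b
    change a⁻¹ * b ∈ D
    change ⁅a, v⁆⁻¹ * ⁅b, v⁆ ∈ A at h1
    set c := a⁻¹ * b with hc
    have hcA : c ∈ A := A.mul_mem (A.inv_mem ha) hb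
    have hw : v⁻¹ * (c * v * c⁻¹) ∈ A := by
      have h2 : ⁅a, v⁆⁻¹ * ⁅b, v⁆ = a * (v⁻¹ * (c * v * c⁻¹)) * a⁻¹ := by
        have h3 := hVc' v hv _ (V.mul_mem (V.inv_mem (hcj a ha v hv)) (hcj b hb v hv))
        calc ⁅a, v⁆⁻¹ * ⁅b, v⁆ = (v * ((a * v * a⁻¹)⁻¹ * (b * v * b⁻¹))) * v⁻¹ := by
              simp only [commutatorElement_def]; group
          _ = _ := by rw [h3, hc]; group
      rw [h2] at h1
      simpa [mul_assoc] using A.mul_mem (A.mul_mem (A.inv_mem ha) h1) ha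
    refine ⟨hcA, ?_⟩
    have : M ≤ centralizer ({c} : Set X) := by
      rw [closure_le]
      rintro _ ⟨d, hd, rfl⟩
      rw [SetLike.mem_coe, mem_centralizer_singleton_iff]
      have h4 := hAc d hd _ hw
      have h5 := hAc d hd c hcA
      calc ⁅d, v⁆ * c = d * v * d⁻¹ * ((v⁻¹ * (c * v * c⁻¹)) * d) * d⁻¹ * c * v⁻¹ := by
            simp only [commutatorElement_def]; group
        _ = (d * c) * v * (d * c)⁻¹ * c * v⁻¹ := by rw [← h4]; group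
        _ = c * ⁅d, v⁆ := by rw [h5]; simp only [commutatorElement_def]; group
    intro m hm
    exact mem_centralizer_singleton_iff.mp (this hm)
  have hcard : Nat.card A ≤ Nat.card (D ⊔ M : Subgroup X) := by
    have h1 := card_sup_mul_card_inf (H := D) (N := M) (hDM.trans (centralizer_le_normalizer _))
    rw [hinf, ← card_inf_mul_relIndex A M, ← mul_assoc, mul_comm _ (A.relIndex M), ← mul_assoc]
      at h1
    have h2 := Nat.eq_of_mul_eq_mul_right Nat.card_pos h1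
    rw [h2, ← card_mul_relIndex (inf_le_left : D ≤ A), mul_comm]
    exact Nat.mul_le_mul_right _ hidx
  have hsP : D ⊔ M ≤ P := sup_le (inf_le_left.trans hAP) (hMV.trans hVP)
  have hlt : A ⊓ V < (D ⊔ M) ⊓ V := by
    refine lt_of_le_of_ne (le_inf (hAVD.trans le_sup_left) inf_le_right) fun h0 => hMA ?_
    exact (le_inf le_sup_right hMV).trans (h0.symm.le.trans inf_le_left)
  have hcent : D ⊔ M ≤ centralizer (V : Set X) := by
    by_contra h0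
    exact absurd (hmax _ ⟨hstar, hsP, hAk.trans hcard, h0⟩) (not_le.mpr (card_lt_card_of_lt hlt))
  have hVle : V ≤ D ⊔ M := by
    have h1 := hb _ (hV.sup hstar hcent) (sup_le hVP hsP) (sup_le hV.le_cent hcent)
    exact le_sup_left.trans
      (eq_of_le_of_card_le le_sup_right (h1.trans (hAk.trans hcard))).symm.le
  have hK : ⁅A, V⁆ ≤ ⁅⁅A, V⁆, A⁆ := by
    rw [commutator_le]
    intro a ha u hu
    obtain ⟨m, hm, d, hd, rfl⟩ := (mem_sup_iff_of_le_normalizer'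
      (hDM.trans (centralizer_le_normalizer _))).mp (sup_comm D M ▸ hVle hu)
    have h1 : ⁅a, m * d⁆ = ⁅m, a⁆⁻¹ := by
      have h2 := hAc a ha d hd.1
      calc ⁅a, m * d⁆ = a * m * (d * a⁻¹ * d⁻¹ * a) * a⁻¹ * m⁻¹ := by
            simp only [commutatorElement_def]; group
        _ = a * m * (d * (d * a)⁻¹ * a) * a⁻¹ * m⁻¹ := by group
        _ = _ := by rw [← h2]; simp only [commutatorElement_def]; group
    rw [h1]
    exact inv_mem (commutator_mem_commutator (hMK hm) ha)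
  haveI := Fact.mk Nat.prime_two
  apply hAV
  rw [← commutator_eq_bot_iff_le_centralizer]
  exact eq_bot_of_le_commutator_of_isNilpotent hP.isNilpotent (hKV.trans hVP)
    (hK.trans (commutator_mono le_rfl hAP))

/-- The candidates for the minimal configuration. -/
structure Cand (T X0 L E : Subgroup X) : Prop where
  mx : MaxW T X0
  ee : EE T X0 E
  XL : X0 ≤ L
  EL : E ≤ L
  LN : L ≤ 𝐍(X0)
  XZ : X0 ≤ 𝐂(Om T)
  EZ : E ≤ 𝐂(Om T)
  nN : ¬ L ≤ 𝐍(Om T)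

theorem exists_cand {X0 L E φ : Subgroup X} (mx : MaxW T X0) (ee : EE T X0 E) (XL : X0 ≤ L)
    (EL : E ≤ L) (LN : L ≤ 𝐍(X0)) (hφ : Pt T φ) (XZ : X0 ≤ 𝐂(φ)) (EZ : E ≤ 𝐂(φ))
    (nN : ¬ L ≤ 𝐍(φ)) : ∃ g : X, Cand T (g •ᶜ X0) (g •ᶜ L) (g •ᶜ E) := by
  obtain ⟨g, rfl⟩ := hφ
  have e : g⁻¹ •ᶜ (g •ᶜ Om T) = Om T := (cj_eq_iff.1 rfl).symm
  refine ⟨g⁻¹, mx.cj _, ee.cj _, map_mono XL, map_mono EL, le_norm_cj LN, e ▸ le_cent_cj XZ,
    e ▸ le_cent_cj EZ, fun h1 => nN ?_⟩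
  have := le_norm_cj (g := g) h1
  rwa [cj_cj, mul_inv_cancel, show (1 : X) •ᶜ L = L from cj_eq_of_mem (one_mem L)] at this

theorem CO1.exists_cand (h : CO1 G T a r) (nwc : ¬ WC T) : ∃ X0 L E, Cand T X0 L E := by
  have hT := h.syl
  obtain ⟨g, hg⟩ := not_forall.1 nwc
  obtain ⟨h1, h2⟩ := Classical.not_imp.1 hg
  have hb : Bad T ⊥ := ⟨IsPGroup.of_bot, Om T, g •ᶜ Om T, pt_Om T, ⟨g, rfl⟩, Ne.symm h2,
    (Om_le_cent T).trans (centralizer_le h1), bot_le, bot_le⟩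
  obtain ⟨D, hD, hmax⟩ := Set.exists_max_image {D : Subgroup X | Bad T D}
    (fun D => Nat.card (WB T D)) (Set.toFinite _) ⟨⊥, hb⟩
  have mx : MaxW T (WB T D) := ⟨WB_idem T D, Bad.mono hD (WB_le T D), hmax⟩
  obtain ⟨h3, φ, ψ, hφ, hψ, hne, -, h4, h5⟩ := mx.bad
  obtain ⟨k, rfl, h6⟩ := hψ.exists_syl hT h3 h5
  obtain ⟨A, hA, h7, h8, h9⟩ := exists_BB_norm (hT.isPGroup.map _) mx.wb h6 fun e =>
    hne (h.eq_of_WB_le hφ ⟨_, hb⟩ k (e.trans h4))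
  have ee : EE T (WB T D) A := ⟨hA.1, hA.2.2.ge, h8, h9⟩
  obtain ⟨g, hg⟩ := CO.exists_cand mx ee le_normalizer h8 le_rfl hψ h5
    (h7.trans (le_cent_cj (le_cent_Om T))) fun e => by
      obtain ⟨k', rfl, h6'⟩ := hφ.exists_syl hT h3 h4
      obtain ⟨A', hA', h7', h8', h9'⟩ := exists_BB_norm (hT.isPGroup.map _) mx.wb h6' fun e =>
        hne (h.eq_of_WB_le hψ ⟨_, hb⟩ k' (e.trans h5)).symm
      exact hne (mx.uniq hT ⟨hA'.1, hA'.2.2.ge, h8', h9'⟩ hφ hψ h4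
        (h7'.trans (le_cent_cj (le_cent_Om T))) h5 (hψ.le_cent hT hA'.1.isPGroup (h8'.trans e)))
  exact ⟨_, _, _, hg⟩

theorem CO1.exists_FFc (h : CO1 G T a r) (nwc : ¬ WC T) :
    ∃ X0 L E : Subgroup X, FFc T X0 L E := by
  have hT := h.syl
  obtain ⟨L, ⟨X0, E, hc⟩, hmin⟩ := Set.exists_min_image {L : Subgroup X | ∃ X0 E, Cand T X0 L E}
    (fun L => Nat.card L) (Set.toFinite _) (by
      obtain ⟨X0, L, E, hc⟩ := h.exists_cand nwc
      exact ⟨L, X0, E, hc⟩)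
  have hpt : ∀ l ∈ L, X0 ≤ 𝐂(l •ᶜ Om T) := fun l hl => by
    have := le_cent_cj (g := l) hc.XZ
    rwa [show l •ᶜ X0 = X0 from mem_normalizer_iff_map_conj_eq.1 (hc.LN hl)] at this
  have hVO : VL T L ≤ Om X0 := iSup₂_le fun l hl => hc.mx.pt_le_Om hT ⟨l, rfl⟩ (hpt l hl)
  have hV : El (VL T L) := (Om_el X0).mono hVO
  have hVX : VL T L ≤ X0 := hVO.trans (Om_le X0)
  have hle : ∀ l ∈ L, l •ᶜ Om T ≤ VL T L := fun l hl => le_iSup₂_of_le l hl le_rfl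
  have hZ : Om T ≤ VL T L := by
    have := hle 1 (one_mem L)
    rwa [show (1 : X) •ᶜ Om T = Om T from cj_eq_of_mem (one_mem _)] at this
  have hLV : L ≤ 𝐍(VL T L) := fun l hl => mem_normalizer_fintype fun x hx => by
    have h1 : l •ᶜ VL T L ≤ VL T L := cj_le_iff.2 (iSup₂_le fun m hm =>
      cj_le_iff.1 (by rw [cj_cj]; exact hle _ (mul_mem hl hm)))
    exact h1 ⟨x, hx, rfl⟩
  obtain ⟨l, hl, hlZ⟩ := SetLike.not_le_iff_exists.1 hc.nN
  have hne : Om T ≠ l •ᶜ Om T := fun e => hlZ (mem_normalizer_iff_map_conj_eq.2 e.symm)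
  have hEV : E ≤ 𝐍(VL T L) := hc.EL.trans hLV
  have hP : IsPGroup 2 ↥(E ⊔ VL T L) :=
    H1.isPGroup_sup_of_le_normalizer hc.ee.el.isPGroup hV.isPGroup hEV
  have hPL : E ⊔ VL T L ≤ L := sup_le hc.EL (hVX.trans hc.XL)
  obtain ⟨A, hA, hAP, hAk, hAV, hq⟩ := el_replacement (k := KK T) hP le_sup_right
    (hPL.trans hLV) hV (fun B hB h1 h2 => Bad.card_le ⟨hB.isPGroup, Om T, l •ᶜ Om T, pt_Om T,
      ⟨l, rfl⟩, hne, hV.le_cent' hZ (hle l hl), h2.trans (centralizer_le hZ),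
      h2.trans (centralizer_le (hle l hl))⟩ hB) hc.ee.el le_sup_left hc.ee.card fun e =>
    hne (hc.mx.uniq hT hc.ee (pt_Om T) ⟨l, rfl⟩ hc.XZ hc.EZ (hpt l hl)
      (e.trans (centralizer_le (hle l hl))))
  refine ⟨X0, L, A, hc.mx, ⟨hA, hAk, (hAP.trans hPL).trans hc.LN, fun e => hAV
    (e.trans ((le_cent_Om X0).trans (centralizer_le hVO)))⟩, hc.XL, hAP.trans hPL, hc.LN, hc.XZ,
    hAP.trans (sup_le hc.EZ (hVX.trans hc.XZ)), hc.nN, ?_, fun v hv e he e' he' => ?_⟩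
  · intro L' E' φ h1 h2 h3 h4 h5 h6 h7 h8
    obtain ⟨g, hg⟩ := CO.exists_cand hc.mx h2 h3 h4 (h1.trans hc.LN) h5 h6 h7 h8
    have := hmin _ ⟨_, _, hg⟩
    rw [card_map_conj] at this
    exact eq_of_le_of_card_le h1 this
  · rw [commutatorElement_eq_one_iff_commute, ← commutatorElement_inv]
    exact (Commute.inv_right (hq v hv e he e' he')).symm

end CfsgLib.CO
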