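import Cfsg.Agent.Lib.CO.VB

set_option autoImplicit false

namespace CfsgLib.CO

open Subgroup Cfsg CfsgLib.FT CfsgLib.FT.BGN CfsgLib.GW CfsgLib.Wal
open CfsgLib.FT.U4 (mem_cent1 mem_cent1' mem_cent mem_cent1_comm cent1_conj conj_mem_conj_iff
  orderOf_conj)
open scoped commutatorElement

variable {X : Type*} [Group X] [Finite X] {G T : Subgroup X} {a : X} {r : ℕ}

theorem Seed.le_cent {W P A : Subgroup X} {u z0 d : X} (h : Seed T W P A u z0 d)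
    {Q : Subgroup X} (hQ : IsPGroup 2 Q) (hN : Q ≤ 𝐍(W)) (hA : A ≤ Q) : Q ≤ 𝐂[u] := by
  obtain ⟨c, hc, hc1, hQc⟩ := four_fix h.elW h.cardW hQ hN
  obtain ⟨e, he, heW⟩ := SetLike.not_le_iff_exists.1 h.AW
  by_cases hcu : c = u
  · exact hcu ▸ hQc
  · exfalso
    have h1 := four_conj' h.elW h.cardW h.uW h.u1 (hN (hA he)) (h.Pu (h.AP he)) heW hc hc1 hcu
    rw [U4.conj_eq_of_mem_cent1 (hQc (hA he))] at h1
    exact h.u1 (left_eq_mul.1 h1)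

theorem Seed.cj {W P A : Subgroup X} {u z0 d : X} (h : Seed T W P A u z0 d) {c : X}
    (hc : c ∈ 𝐂[z0]) :
    Seed T (c •ᶜ W) (c •ᶜ P) (c •ᶜ A) (c * u * c⁻¹) z0 (c * d * c⁻¹) := by
  have hz : c * z0 * c⁻¹ = z0 := U4.conj_eq_of_mem_cent1 hc
  refine ⟨h.pP.map _, map_mono h.WP, U4.le_norm_conj h.PN c, h.elW.cj c,
    by rw [card_map_conj, h.cardW], conj_mem_map_conj h.uW, U4.conj_ne_one_iff.2 h.u1, ?_,
    map_mono h.AP, h.elA.cj c, by rw [card_map_conj]; exact h.cardA, ?_, h.zZ, ?_, ?_, ?_, ?_, ?_⟩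
  · rw [cent1_conj]; exact map_mono h.Pu
  · rw [centralizer_map_conj, U4.conj_le_conj_iff]; exact h.AW
  · rw [← hz, cent1_conj]; exact map_mono h.Pz
  · rw [normalizer_map_conj]; exact conj_mem_map_conj h.dN
  · rw [cent1_conj, conj_mem_conj_iff]; exact h.du
  · have : z0 * (c * u * c⁻¹) = c * (z0 * u) * c⁻¹ := by
      conv_lhs => rw [← hz]
      group
    rw [this, cent1_conj]; exact conj_mem_map_conj h.dz
  · intro D hD
    rw [centralizer_map_conj, ← map_conj_inf, WB_cj, card_map_conj]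
    exact h.max D hD

theorem b1c_cent1_inf_le {x y : X} : 𝐂[x] ⊓ 𝐂[y] ≤ 𝐂[x * y] := by
  rintro g ⟨h1, h2⟩
  have h1' := mem_cent1.1 h1
  have h2' := mem_cent1.1 h2
  refine mem_cent1.2 ?_
  rw [← mul_assoc, h1', mul_assoc, h2', mul_assoc]

theorem Seed.vx_of (hT : IsSylowIn 2 T ⊤) {W P A S : Subgroup X} {u z0 d : X}
    (h : Seed T W P A u z0 d) (hS : IsSylowIn 2 S (𝐍(W) ⊓ 𝐂[z0 * u])) (hPS : P ≤ S)
    (hST : S ≤ T) : Vx T W u := by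
  have hSN : S ≤ T ⊓ 𝐍(W) := le_inf hST (hS.le.trans inf_le_left)
  have hNu : T ⊓ 𝐍(W) ≤ 𝐂[u] :=
    h.le_cent hT.isPGroup.to_inf_left inf_le_right (h.AP.trans (hPS.trans hSN))
  have hTz : T ≤ 𝐂[z0] := (le_cent_Om T).trans (U4.cent_le_cent1 h.zZ)
  have hNH : T ⊓ 𝐍(W) ≤ 𝐍(W) ⊓ 𝐂[z0 * u] :=
    le_inf inf_le_right ((le_inf (inf_le_left.trans hTz) hNu).trans b1c_cent1_inf_le)
  have hSeq : T ⊓ 𝐍(W) = S := hS.eq_of_le hT.isPGroup.to_inf_left hSN hNH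
  have hK : 𝐍(W) ⊓ 𝐂[z0 * u] ≤ 𝐍((𝐍(W) ⊓ 𝐂[z0 * u]) ⊓ 𝐂(W)) :=
    H1.le_normalizer_inf le_normalizer
      (inf_le_left.trans (Cop.normalizer_le_normalizer_centralizer W))
  have hE : IsSylowIn 2 (T ⊓ 𝐂(W)) ((𝐍(W) ⊓ 𝐂[z0 * u]) ⊓ 𝐂(W)) := by
    have h1 := hS.inf_of_le_normalizer inf_le_left (hS.le.trans hK)
    have h2 : S ⊓ ((𝐍(W) ⊓ 𝐂[z0 * u]) ⊓ 𝐂(W)) = T ⊓ 𝐂(W) := by
      refine le_antisymm (inf_le_inf hST inf_le_right) ?_
      have h3 : T ⊓ 𝐂(W) ≤ T ⊓ 𝐍(W) := inf_le_inf_left _ (U4.cent_le_norm W)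
      exact le_inf (hSeq ▸ h3) (le_inf (h3.trans hNH) inf_le_right)
    rwa [h2] at h1
  obtain ⟨k, hk, hkd⟩ := hE.frattini_elem (hK ⟨h.dN, h.dz⟩)
  refine ⟨(𝐍(W) ⊓ 𝐂[z0 * u]) ⊓ 𝐍(T ⊓ 𝐂(W)), A, k * d, z0, h.WP.trans (hPS.trans hST), h.elW,
    h.cardW, h.uW, h.u1, hNu, inf_le_right, inf_le_left.trans inf_le_left, le_inf hNH ?_, ?_,
    ⟨mul_mem hk.1 ⟨h.dN, h.dz⟩, hkd⟩, ?_, h.AP.trans (hPS.trans hSN), h.elA, h.cardA, h.AW, h.zZ,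
    inf_le_left.trans inf_le_right, ?_⟩
  · exact H1.le_normalizer_inf (inf_le_left.trans le_normalizer)
      (inf_le_right.trans (Cop.normalizer_le_normalizer_centralizer W))
  · intro D hD hDH hDW
    have h1 := hE.eq_of_le
      (H1.isPGroup_sup_of_le_normalizer hD hE.isPGroup (hDH.trans inf_le_right)) le_sup_right
      (sup_le (le_inf (hDH.trans inf_le_left) hDW) hE.le)
    exact le_sup_left.trans (h1.le.trans inf_le_left)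
  · intro hc
    have h1 : k ∈ 𝐂[u] := U4.cent_le_cent1 h.uW hk.2
    exact h.du ((mul_mem_cancel_left h1).1 hc)
  · intro D hD
    exact (h.max D hD).trans
      (card_le_of_le (WB_mono (inf_le_inf_right _ (hPS.trans hST))))

theorem Seed.vx (hT : IsSylowIn 2 T ⊤) {W P A : Subgroup X} {u z0 d : X}
    (h : Seed T W P A u z0 d) : ∃ (W' : Subgroup X) (u' : X), Vx T W' u' := by
  obtain ⟨S, hPS, hS⟩ := IsSylowIn.exists_ge h.pP
    (le_inf h.PN ((le_inf h.Pz h.Pu).trans b1c_cent1_inf_le) : P ≤ 𝐍(W) ⊓ 𝐂[z0 * u])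
  have hSu : S ≤ 𝐂[u] := h.le_cent hS.isPGroup (hS.le.trans inf_le_left) (h.AP.trans hPS)
  have hSz : S ≤ 𝐂[z0] := by
    have h1 : S ≤ 𝐂[z0 * u * u] :=
      (le_inf (hS.le.trans inf_le_right) hSu).trans b1c_cent1_inf_le
    rwa [mul_assoc, h.elW u h.uW, mul_one] at h1
  have hTz : T ≤ 𝐂[z0] := (le_cent_Om T).trans (U4.cent_le_cent1 h.zZ)
  obtain ⟨c, hc, hcS⟩ := (hT.mono hTz le_top).exists_conj_le hS.isPGroup hSz
  refine ⟨_, _, (h.cj hc).vx_of hT (S := c •ᶜ S) ?_ (map_mono hPS) hcS⟩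
  have hz : c * z0 * c⁻¹ = z0 := U4.conj_eq_of_mem_cent1 hc
  have : z0 * (c * u * c⁻¹) = c * (z0 * u) * c⁻¹ := by
    conv_lhs => rw [← hz]
    group
  rw [this, cent1_conj, normalizer_map_conj, ← map_conj_inf]
  exact hS.map_conj c

end CfsgLib.CO
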