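import Cfsg.Agent.Lib.CO.B3a

set_option autoImplicit false

namespace CfsgLib.CO

open Subgroup Cfsg CfsgLib.FT CfsgLib.FT.BGN CfsgLib.GW CfsgLib.Wal
open CfsgLib.FT.U4 (mem_cent1 mem_cent1' mem_cent mem_cent1_comm cent1_conj conj_mem_conj_iff
  orderOf_conj)
open scoped commutatorElement

variable {X : Type*} [Group X] [Finite X] {G T : Subgroup X} {a : X} {r : ℕ}

variable {W : Subgroup X} {u : X}

namespace B3

variable {H A0 F : Subgroup X} {d z0 v v' t d1 : X}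

theorem four_norm (hW : El W) (h4 : Nat.card W = 4) (hu : u ∈ W) (h1 : u ≠ 1) {v : X} (hv : v ∈ W)
    (hv1 : v ≠ 1) (hvu : v ≠ u) {y : X} (hyu : y ∈ 𝐂[u]) (hyv : y * v * y⁻¹ ∈ W) : y ∈ 𝐍(W) := by
  refine mem_normalizer_of_conj_mem fun w hw => ?_
  have a := conj_eq_of_cent1 hyu
  rcases four_mem hW h4 hu h1 hv hv1 hvu hw with rfl | rfl | rfl | rfl
  · simp
  · rwa [a]
  · exact hyv
  · have : y * (v * u) * y⁻¹ = (y * v * y⁻¹) * (y * u * y⁻¹) := by group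
    rw [this, a]
    exact mul_mem hyv hu

omit [Finite X] in
theorem v'T (hD : VxD T W u H A0 d z0) (hB : Blk T W F u v v' t d1) : v' ∈ T :=
  hB.hv' ▸ mul_mem (mul_mem hB.tT (hD.WT hB.vW)) (inv_mem hB.tT)

omit [Finite X] in
theorem v'2 (hD : VxD T W u H A0 d z0) (hB : Blk T W F u v v' t d1) : v' * v' = 1 := by
  rw [hB.hv']
  calc t * v * t⁻¹ * (t * v * t⁻¹) = t * (v * v) * t⁻¹ := by group
    _ = 1 := by rw [hD.elW v hB.vW]; group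

theorem v'v (hD : VxD T W u H A0 d z0) (hB : Blk T W F u v v' t d1) : v' * v * v'⁻¹ = v * u :=
  four_conj' hD.elW hD.cardW hD.uW hD.u1 hB.v'N (hD.Nu ⟨v'T hD hB, hB.v'N⟩) hB.v'W hB.vW hB.v1 hB.vu

/-- An involution of `𝒩 \ E` commutes with `v'`. -/
theorem inv_N (hD : VxD T W u H A0 d z0) (hB : Blk T W F u v v' t d1) {y : X} (hyT : y ∈ T)
    (hyN : y ∈ 𝐍(W)) (hy : y * y = 1) (hc : y ∉ 𝐂(W)) : y ∈ 𝐂[v'] := by
  have hv'u : v' ∈ 𝐂[u] := hD.Nu ⟨v'T hD hB, hB.v'N⟩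
  have h2 := v'2 hD hB
  have hi : v'⁻¹ = v' := inv_eq_of_mul_eq_one_right h2
  obtain ⟨f, hf, w, hw, e⟩ := hB.dec (y * v') ⟨mul_mem hyT (v'T hD hB),
    four_mul_mem hD.elW hD.cardW hD.uW hD.u1 hyN (hD.Nu ⟨hyT, hyN⟩) hc hB.v'N hv'u hB.v'W⟩
  have ey : y = f * w * v' := by rw [← e, mul_assoc, h2, mul_one]
  have k1 : v' * f * v'⁻¹ = f := conj_eq_of_cent1 (mem_cent1_comm.1 (hB.Fv' hf))
  have k2 : w * f = f * w := mem_cent.1 (hB.FE hf).2 w hw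
  rcases four_conj hD.elW hD.cardW hD.uW hD.u1 hB.v'N hv'u hw with e' | e'
  · rw [ey]
    exact mul_mem (mul_mem (hB.Fv' hf) (mem_cent1_comm.1 (U4.mem_cent1_of_conj_eq e')))
      (mem_cent1.2 rfl)
  · exfalso
    have k3 : f * f * u = 1 := by
      calc f * f * u = f * f * (w * w) * u := by rw [hD.elW w hw, mul_one]
        _ = f * (f * w) * (w * u) := by group
        _ = f * (w * f) * (w * u) := by rw [k2]
        _ = f * w * (v' * f * v'⁻¹) * (v' * w * v'⁻¹) := by rw [k1, e']; group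
        _ = f * w * v' * (f * w * v'⁻¹) := by group
        _ = 1 := by rw [hi, ← ey, hy]
    have k4 : u ∈ F ⊓ W := ⟨by
      rw [eq_inv_of_mul_eq_one_right k3]
      exact F.inv_mem (F.mul_mem hf hf), hD.uW⟩
    rw [hB.FW] at k4
    exact hD.u1 k4

theorem inverts_N (hD : VxD T W u H A0 d z0) (hB : Blk T W F u v v' t d1) {y : X} (hyT : y ∈ T)
    (hyN : y ∈ 𝐍(W)) (hy : y * y = 1) (hc : y ∉ 𝐂(W)) : y * (v * v') * y⁻¹ = (v * v')⁻¹ := by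
  have k1 := conj_eq_of_cent1 (inv_N hD hB hyT hyN hy hc)
  have k2 := four_conj' hD.elW hD.cardW hD.uW hD.u1 hyN (hD.Nu ⟨hyT, hyN⟩) hc hB.vW hB.v1 hB.vu
  calc y * (v * v') * y⁻¹ = (y * v * y⁻¹) * (y * v' * y⁻¹) := by group
    _ = (v' * v * v'⁻¹) * v' := by rw [k1, k2, v'v hD hB]
    _ = v' * v := by group
    _ = (v * v')⁻¹ := by
      rw [mul_inv_rev, hD.elW.inv hB.vW, inv_eq_of_mul_eq_one_right (v'2 hD hB)]

theorem inverts (hT : IsSylowIn 2 T ⊤) (hD : VxD T W u H A0 d z0) (lc : LC T W u)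
    (hB : Blk T W F u v v' t d1) {y : X} (hyT : y ∈ T)
    (hyu : y ∈ 𝐂[u]) (hy : y * y = 1) (hc : y ∉ 𝐂(W)) : y * (v * v') * y⁻¹ = (v * v')⁻¹ := by
  by_cases hyN : y ∈ 𝐍(W)
  · exact inverts_N hD hB hyT hyN hy hc
  have hW := hD.elW
  have h4 := hD.cardW
  have hu := hD.uW
  have h1 := hD.u1
  have hv := hB.vW
  have hvv : v * v = 1 := hW v hv
  have hvi : v⁻¹ = v := hW.inv hv
  have hyi : y⁻¹ = y := inv_eq_of_mul_eq_one_right hy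
  have hui : u⁻¹ = u := hW.inv hu
  have hvu : v ∈ 𝐂[u] := hW.le_cent1 hu hv
  have hvy : y ∉ 𝐂[v] := fun e => hc (four_cent hW h4 hu h1 hv hB.v1 hB.vu hyu e)
  obtain ⟨k, hk⟩ := Vx.beta hT ⟨H, A0, d, z0, hD⟩ lc hv hyT hyu hy hvy
  rcases k with _ | j
  · exfalso
    refine hyN (four_norm hW h4 hu h1 hv hB.v1 hB.vu hyu ?_)
    have : y * v * y⁻¹ = v * u := by
      rw [← hk, pow_zero, pow_one, pow_two, hyi]
      calc y * v * y = (v * v) * y * v * y := by rw [hvv, one_mul]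
        _ = _ := by group
    rw [this]
    exact mul_mem hv hu
  obtain ⟨m, hm⟩ : ∃ m, m = (v * y) ^ 2 ^ j := ⟨_, rfl⟩
  have hgT : v * y ∈ T ⊓ 𝐂[u] := ⟨mul_mem (hD.WT hv) hyT, mul_mem hvu hyu⟩
  have hmT : m ∈ T ⊓ 𝐂[u] := hm ▸ pow_mem hgT _
  have hvm : v * m * v⁻¹ = m⁻¹ := by
    have : v * (v * y) * v⁻¹ = (v * y)⁻¹ := by
      rw [mul_inv_rev, hyi, hvi, ← mul_assoc, hvv, one_mul]
    rw [hm, ← conj_pow, this, inv_pow]
  have hym : y * m * y⁻¹ = m⁻¹ := by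
    have : y * (v * y) * y⁻¹ = (v * y)⁻¹ := by
      rw [mul_inv_rev, hvi, mul_assoc, mul_inv_cancel_right, hyi]
    rw [hm, ← conj_pow, this, inv_pow]
  have hm4 : m * m * (m * m) = u := by
    rw [← hk, hm, ← pow_add, ← pow_add, ← pow_mul]
    congr 1
    ring
  obtain ⟨n, hn⟩ : ∃ n, n = m * m := ⟨_, rfl⟩
  have hnT : n ∈ T ⊓ 𝐂[u] := hn ▸ mul_mem hmT hmT
  have hnn : n * n = u := hn ▸ hm4
  have hvn : v * n * v⁻¹ = n⁻¹ := by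
    calc v * n * v⁻¹ = (v * m * v⁻¹) * (v * m * v⁻¹) := by rw [hn]; group
      _ = n⁻¹ := by rw [hvm, hn, mul_inv_rev]
  have hyn : y * n * y⁻¹ = n⁻¹ := by
    calc y * n * y⁻¹ = (y * m * y⁻¹) * (y * m * y⁻¹) := by rw [hn]; group
      _ = n⁻¹ := by rw [hym, hn, mul_inv_rev]
  have hnv : n * v * n⁻¹ = v * u := by
    calc n * v * n⁻¹ = v⁻¹ * (v * n * v⁻¹) * (v * v) * n⁻¹ := by group
      _ = v⁻¹ * (n * n)⁻¹ := by rw [hvn, hvv]; group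
      _ = v * u := by rw [hnn, hui, hvi]
  have hnN : n ∈ 𝐍(W) := four_norm hW h4 hu h1 hv hB.v1 hB.vu hnT.2 (hnv ▸ mul_mem hv hu)
  have hnc : v * n ∉ 𝐂(W) := fun e => by
    have e1 : n ∈ 𝐂(W) := by simpa using mul_mem (inv_mem (hW.le_cent hv)) e
    have e2 := conj_eq_of_cent1 (U4.cent_le_cent1 hv e1)
    rw [hnv] at e2
    exact h1 (by simpa using e2)
  have hvn2 : v * n * (v * n) = 1 := by
    calc v * n * (v * n) = (v * n * v⁻¹) * (v * v) * n := by group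
      _ = 1 := by rw [hvn, hvv]; group
  have hc' : v * n ∈ 𝐂[v'] :=
    inv_N hD hB (mul_mem (hD.WT hv) hnT.1) (mul_mem (le_normalizer hv) hnN) hvn2 hnc
  have hmv : m⁻¹ * v * m = v * n := by
    calc m⁻¹ * v * m = (v * m * v⁻¹) * v * m := by rw [hvm]
      _ = v * n := by rw [hn]; group
  have hsT : t⁻¹ * m⁻¹ ∈ T ⊓ 𝐂[u] := mul_mem (inv_mem ⟨hB.tT, hB.tu⟩) (inv_mem hmT)
  have hsv : t⁻¹ * m⁻¹ * v * (t⁻¹ * m⁻¹)⁻¹ = t⁻¹ * (v * n) * t := by rw [← hmv]; group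
  have hsvc : t⁻¹ * (v * n) * t ∈ 𝐂(W) := by
    refine four_cent hW h4 hu h1 hv hB.v1 hB.vu
      (mul_mem (mul_mem (inv_mem hB.tu) (mul_mem hvu hnT.2)) hB.tu) ?_
    rwa [hB.hv', cent1_conj, mem_map_conj_iff] at hc'
  have hsN : t⁻¹ * m⁻¹ ∈ 𝐍(W) := by
    refine lc _ hsT.1 hsT.2 fun x hx => ?_
    obtain ⟨w, hw, rfl⟩ := hx
    change t⁻¹ * m⁻¹ * w * (t⁻¹ * m⁻¹)⁻¹ ∈ 𝐂(W)
    have a := conj_eq_of_cent1 hsT.2
    rcases four_mem hW h4 hu h1 hv hB.v1 hB.vu hw with rfl | rfl | rfl | rfl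
    · simp
    · rw [a]; exact hW.le_cent hu
    · rwa [hsv]
    · have : t⁻¹ * m⁻¹ * (v * u) * (t⁻¹ * m⁻¹)⁻¹ =
          (t⁻¹ * m⁻¹ * v * (t⁻¹ * m⁻¹)⁻¹) * (t⁻¹ * m⁻¹ * u * (t⁻¹ * m⁻¹)⁻¹) := by group
      rw [this, a, hsv]
      exact mul_mem hsvc (hW.le_cent hu)
  have htu := conj_eq_of_cent1 hB.tu
  rcases four_conj hW h4 hu h1 hsN hsT.2 hv with e | e
  · have e1 : v * v' = n := by
      calc v * v' = v * (t * (t⁻¹ * (v * n) * t) * t⁻¹) := by rw [← hsv, e, hB.hv']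
        _ = (v * v) * n := by group
        _ = n := by rw [hvv, one_mul]
    rw [e1, hyn]
  · have e1 : v * v' = n⁻¹ := by
      calc v * v' = v * (t * (v * u) * t⁻¹) * (t * u * t⁻¹)⁻¹ := by rw [hB.hv']; group
        _ = v * (t * (t⁻¹ * (v * n) * t) * t⁻¹) * (n * n)⁻¹ := by rw [← hsv, e, htu, hnn]
        _ = (v * v) * n⁻¹ := by group
        _ = n⁻¹ := by rw [hvv, one_mul]
    rw [e1]
    calc y * n⁻¹ * y⁻¹ = (y * n * y⁻¹)⁻¹ := by group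
      _ = n⁻¹⁻¹ := by rw [hyn]

theorem vv'_sq (hD : VxD T W u H A0 d z0) (hB : Blk T W F u v v' t d1) :
    v * v' * (v * v') = u := by
  calc v * v' * (v * v') = v * (v' * v * v'⁻¹) * (v' * v') := by group
    _ = (v * v) * u := by rw [v'v hD hB, v'2 hD hB]; group
    _ = u := by rw [hD.elW v hB.vW, one_mul]

end B3

open B3

/-- (R2) in the block case. -/
theorem Vx.block_ib (hT : IsSylowIn 2 T ⊤) (h : Vx T W u) (hb : ¬ T ⊓ 𝐂[u] ≤ 𝐍(W))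
    (lc : LC T W u) : IB T W u := by
  obtain ⟨F, v, v', t, d1, hB⟩ := h.blk hT hb
  obtain ⟨H, A0, d, z0, hD⟩ := h
  intro A hA hAT hAu x hx y hy hxc hyc
  by_contra hc
  have k1 := inverts hT hD lc hB (hAT hx) (hAu hx) (hA x hx) hxc
  have k2 := inverts hT hD lc hB (hAT hy) (hAu hy) (hA y hy) hyc
  have hxy := mul_mem hx hy
  have k3 := inverts hT hD lc hB (hAT hxy) (hAu hxy) (hA _ hxy) hc
  have k4 : x * y * (v * v') * (x * y)⁻¹ = v * v' := by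
    calc x * y * (v * v') * (x * y)⁻¹ = x * (y * (v * v') * y⁻¹) * x⁻¹ := by group
      _ = (x * (v * v') * x⁻¹)⁻¹ := by rw [k2]; group
      _ = v * v' := by rw [k1, inv_inv]
  apply hD.u1
  rw [← vv'_sq hD hB]
  exact mul_eq_one_iff_eq_inv.2 (k4.symm.trans k3)

/-- (R3) in the block case. -/
theorem Vx.block_ind (hT : IsSylowIn 2 T ⊤) (h : Vx T W u) (hb : ¬ T ⊓ 𝐂[u] ≤ 𝐍(W))
    (lc : LC T W u) : Ind T u := by
  obtain ⟨F, v, v', t, d1, hB⟩ := h.blk hT hb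
  obtain ⟨H, A0, d, z0, hD⟩ := id h
  refine ⟨d1, hB.du, fun s hs hne hJ => ?_⟩
  have htu := conj_eq_of_cent1 hB.tu
  have hEu : T ⊓ 𝐂(W) ≤ T ⊓ 𝐂[u] := inf_le_inf_left _ (U4.cent_le_cent1 hD.uW)
  have hWJ : W ≤ WB T (T ⊓ 𝐂[u]) := (hD.W_le_Om hT).trans ((Om_le _).trans (WB_mono hEu))
  have hcj : ∀ g ∈ 𝐍(T), g * u * g⁻¹ = s * u * s⁻¹ → g •ᶜ W ≤ T ⊓ 𝐂(W) := fun g hg e => by
    have e1 : g •ᶜ (T ⊓ 𝐂[u]) = T ⊓ 𝐂[s * u * s⁻¹] := by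
      rw [map_conj_inf, map_conj_eq_of_mem_normalizer hg, FT.cj_cent1, e]
    have e2 : g •ᶜ W ≤ T ⊓ 𝐂[u] := by
      refine le_trans ?_ (WB_le T _)
      rw [← hJ, ← e1, WB_cj]
      exact map_mono hWJ
    refine le_inf (e2.trans inf_le_left) ?_
    refine h.comm hT lc (h.cj hg) (lc.cj hg) (by rw [e]; exact hne.symm) ?_ (e2.trans inf_le_right)
    rw [e]
    exact hWJ.trans (hJ ▸ (WB_le T _).trans inf_le_right)
  have k1 := hcj s hs rfl (conj_mem_map_conj hB.vW)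
  have k2 := hcj (s * t) (mul_mem hs (le_normalizer hB.tT)) (by
    calc s * t * u * (s * t)⁻¹ = s * (t * u * t⁻¹) * s⁻¹ := by group
      _ = _ := by rw [htu]) (conj_mem_map_conj hB.vW)
  have k3 : s * t * v * (s * t)⁻¹ = s * v' * s⁻¹ := by rw [hB.hv']; group
  rw [k3] at k2
  obtain ⟨f1, hf1, w1, hw1, e1⟩ := hB.dec _ k1
  obtain ⟨f2, hf2, w2, hw2, e2⟩ := hB.dec _ k2
  have c1 : w1 * f2 = f2 * w1 := mem_cent.1 (hB.FE hf2).2 w1 hw1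
  have c2 : w2 * f1 = f1 * w2 := mem_cent.1 (hB.FE hf1).2 w2 hw2
  have c3 : w1 * w2 = w2 * w1 := hD.elW.comm hw1 hw2
  have hu : u = v⁻¹ * (v' * v * v'⁻¹) := by rw [v'v hD hB]; group
  have key : s * u * s⁻¹ = f1⁻¹ * f2 * f1 * f2⁻¹ := by
    have c4 : w1⁻¹ * f1⁻¹ = f1⁻¹ * w1⁻¹ := by
      rw [← mul_inv_rev, ← mul_inv_rev, mem_cent.1 (hB.FE hf1).2 w1 hw1]
    have c5 : w1 * f1 = f1 * w1 := mem_cent.1 (hB.FE hf1).2 w1 hw1
    have d1 : w2 * f1 * w2⁻¹ = f1 := by rw [c2]; group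
    have d2 : w2 * w1 * w2⁻¹ = w1 := by rw [← c3]; group
    have d3 : f2 * w1 * f2⁻¹ = w1 := by rw [← c1]; group
    have d4 : w1⁻¹ * (f1⁻¹ * f2 * f1 * f2⁻¹) * w1 = f1⁻¹ * f2 * f1 * f2⁻¹ := by
      have := mem_cent.1 (hB.FE (mul_mem (mul_mem (mul_mem (inv_mem hf1) hf2) hf1)
        (inv_mem hf2))).2 w1 hw1
      rw [mul_assoc, ← this]; group
    calc s * u * s⁻¹ = (s * v * s⁻¹)⁻¹ * ((s * v' * s⁻¹) * (s * v * s⁻¹) * (s * v' * s⁻¹)⁻¹) := by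
          rw [hu]; group
      _ = w1⁻¹ * f1⁻¹ * (f2 * ((w2 * f1 * w2⁻¹) * (w2 * w1 * w2⁻¹)) * f2⁻¹) := by
          rw [e1, e2]; group
      _ = w1⁻¹ * (f1⁻¹ * f2 * f1 * f2⁻¹) * (f2 * w1 * f2⁻¹) := by rw [d1, d2]; group
      _ = _ := by rw [d3, d4]
  rw [key, mem_cent1_comm]
  exact hB.Fd (mul_mem (mul_mem (mul_mem (inv_mem hf1) hf2) hf1) (inv_mem hf2))

end CfsgLib.CO
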