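import Cfsg.Agent.Lib.CO.B4

set_option autoImplicit false

namespace CfsgLib.CO

open Subgroup Cfsg CfsgLib.FT CfsgLib.FT.BGN CfsgLib.GW CfsgLib.Wal
open CfsgLib.FT.U4 (mem_cent1 mem_cent1' mem_cent mem_cent1_comm cent1_conj conj_mem_conj_iff
  orderOf_conj)
open scoped commutatorElement

variable {X : Type*} [Group X] [Finite X] {G T : Subgroup X} {a : X} {r : ℕ}

variable {W : Subgroup X} {u : X}

theorem b5a_moves (hW : El W) (h4 : Nat.card W = 4) (hu : u ∈ W) (h1 : u ≠ 1) {v b : X}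
    (hv : v ∈ W) (hv1 : v ≠ 1) (hvu : v ≠ u) (hb : b ∈ 𝐂[u]) (hbW : b ∉ 𝐂(W)) : b ∉ 𝐂[v] :=
  fun e => hbW (mem_cent.mpr fun w hw => by
    have h2 := mem_cent1.mp hb
    have h3 := mem_cent1.mp e
    rcases four_mem hW h4 hu h1 hv hv1 hvu hw with rfl | rfl | rfl | rfl
    · rw [one_mul, mul_one]
    · exact h2.symm
    · exact h3.symm
    · rw [mul_assoc, ← h2, ← mul_assoc, ← h3, mul_assoc])

/-- An involution moving `v` also moves `v v'`. -/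
theorem b5a_key (hT : IsSylowIn 2 T ⊤) {W' : Subgroup X} {u' : X} (h : Vx T W u) (lc : LC T W u)
    (h' : Vx T W' u') (lc' : LC T W' u') (hne : u ≠ u') {v v' b : X} (hv : v ∈ W) (hv' : v' ∈ W')
    (hbT : b ∈ T) (hb : b ∈ 𝐂[u]) (hb' : b ∈ 𝐂[u']) (hbb : b * b = 1) (hbv : b ∉ 𝐂[v]) :
    b ∉ 𝐂[v * v'] := fun e => by
  obtain ⟨k, hk⟩ := h.beta hT lc hv hbT hb hbb hbv
  obtain ⟨H, A0, d, z0, hd⟩ := id h
  obtain ⟨H', A0', d', z0', hd'⟩ := id h'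
  have h1 := mem_cent1.mp e
  have h2 := hd.elW v hv
  have h3 := hd'.elW v' hv'
  have h4 : (v * b) ^ 2 = (v' * b) ^ 2 := by
    calc _ = v * (b * (v * v')) * v' * b * (b⁻¹ * (v' * v')⁻¹ * b) := by rw [sq]; group
      _ = v * v * (v' * b * (v' * b)) := by rw [h1, h3]; group
      _ = _ := by rw [h2, one_mul, sq]
  have h5 : b ∉ 𝐂[v'] := fun e' => hd.u1 (by
    rw [← hk, h4, sq, mul_assoc, ← mul_assoc b, mem_cent1.mp e', mul_assoc, hbb, mul_one, h3,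
      one_pow])
  obtain ⟨j, hj⟩ := h'.beta hT lc' hv' hbT hb' hbb h5
  exact hne (eq_of_pow_two_pow hk (h4 ▸ hj) (hd.elW u hd.uW) (hd'.elW u' hd'.uW) hd.u1 hd'.u1)

theorem b5a_two_le {N M : Subgroup X} {v : X} (hv : v ∈ M) (h : v ∉ N) : 2 ≤ N.relIndex M := by
  have h1 : N.relIndex M ≠ 0 := index_ne_zero_of_finite
  have h2 : N.relIndex M ≠ 1 := fun e => h (relIndex_eq_one.mp e hv)
  omega

theorem b5a_three_le {N M : Subgroup X} {v w : X} (hv : v ∈ M) (hw : w ∈ M) (h1 : v ∉ N)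
    (h2 : w ∉ N) (h3 : v * w ∉ N) : 3 ≤ N.relIndex M := by
  have h4 := b5a_two_le hv h1
  have h5 : N.relIndex M ≠ 2 := fun e => h3
    ((mul_mem_iff_of_index_two (H := N.subgroupOf M) e (a := ⟨v, hv⟩) (b := ⟨w, hw⟩)).mpr
      (iff_of_false h1 h2))
  omega

/-- The roots are independent modulo `C(A)`. -/
theorem b5a_roots {A U : Subgroup X} (hA : El A) (hu : u * u = 1) (h0 : ¬ A ≤ 𝐂[u])
    (hU : ∀ x ∈ A, x * u * x⁻¹ ∈ U) {e : X} (he : e ∉ 𝐂[u])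
    (h : ∀ x ∈ A, x * u * x⁻¹ ≠ u → e ∈ 𝐂[x * u * x⁻¹]) :
    𝐂[u].relIndex A ≤ 𝐂(A).relIndex U := by
  have hsq : ∀ x : X, (x * u * x⁻¹)⁻¹ = x * u * x⁻¹ := fun x => by
    rw [conj_inv, inv_eq_of_mul_eq_one_right hu]
  have hxx : ∀ x ∈ A, x * (x * u * x⁻¹) * x⁻¹ = u := fun x hx => by
    calc _ = x * x * u * (x * x)⁻¹ := by group
      _ = u := by rw [hA x hx]; group
  by_cases H : ∀ x ∈ A, ∀ y ∈ A, (x * u * x⁻¹)⁻¹ * (y * u * y⁻¹) ∈ 𝐂(A) →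
      x * u * x⁻¹ = y * u * y⁻¹
  · refine Nat.card_le_card_of_injective (fun c : A ⧸ 𝐂[u].subgroupOf A =>
      ((⟨c.out * u * (c.out : X)⁻¹, hU _ c.out.2⟩ : U) : U ⧸ 𝐂(A).subgroupOf U)) fun c c' e => ?_
    have h0 : (⟨c.out * u * (c.out : X)⁻¹, hU _ c.out.2⟩ : U)⁻¹ *
        ⟨c'.out * u * (c'.out : X)⁻¹, hU _ c'.out.2⟩ ∈ 𝐂(A).subgroupOf U := QuotientGroup.eq.mp e
    have h1 := H _ c.out.2 _ c'.out.2 h0
    rw [← c.out_eq, ← c'.out_eq]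
    refine QuotientGroup.eq.mpr (U4.mem_cent1_of_conj_eq ?_)
    change (c.out : X)⁻¹ * c'.out * u * ((c.out : X)⁻¹ * c'.out)⁻¹ = u
    calc _ = (c.out : X)⁻¹ * (c'.out * u * (c'.out : X)⁻¹) * c.out := by group
      _ = u := by rw [← h1]; group
  push Not at H
  obtain ⟨x, hx, y, hy, h1, h2⟩ := H
  obtain ⟨p, hp, h3, h4⟩ : ∃ p ∈ A, p * u * p⁻¹ ≠ u ∧ u * (p * u * p⁻¹) ∈ 𝐂(A) := by
    refine ⟨x * y, A.mul_mem hx hy, fun e => h2 ?_, ?_⟩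
    · calc _ = x * (x * y * u * (x * y)⁻¹) * x⁻¹ := by rw [e]
        _ = x * x * (y * u * y⁻¹) * (x * x)⁻¹ := by group
        _ = _ := by rw [hA x hx]; group
    · rw [hsq] at h1
      have h5 := mem_cent.mp h1 x hx
      have h6 : u * (x * y * u * (x * y)⁻¹) = x * u * x⁻¹ * (y * u * y⁻¹) := by
        calc _ = x * (x * u * x⁻¹) * x⁻¹ * (x * y * u * (x * y)⁻¹) := by rw [hxx x hx]
          _ = x * (x * u * x⁻¹ * (y * u * y⁻¹)) * x⁻¹ := by group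
          _ = _ := by rw [h5]; group
      rwa [h6]
  have h5 : ∀ q ∈ A, q ∉ 𝐂[u] → q * u * q⁻¹ = p * u * p⁻¹ := fun q hq h5 => by
    by_contra h6
    have h7 : q * u * q⁻¹ ≠ u := fun e => h5 (U4.mem_cent1_of_conj_eq e)
    have h8 : q * p * u * (q * p)⁻¹ ≠ u := fun e => h6 (by
      calc _ = q * (q * p * u * (q * p)⁻¹) * q⁻¹ := by rw [e]
        _ = q * q * (p * u * p⁻¹) * (q * q)⁻¹ := by group
        _ = _ := by rw [hA q hq]; group)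
    have h9 : u = q * u * q⁻¹ * (q * p * u * (q * p)⁻¹) * (p * u * p⁻¹) := by
      calc _ = u * (p * u * p⁻¹) * (p * u * p⁻¹)⁻¹ := by group
        _ = q * (u * (p * u * p⁻¹)) * q⁻¹ * (p * u * p⁻¹) := by
          rw [mem_cent.mp h4 q hq, hsq]; group
        _ = _ := by group
    refine he (mem_cent1_comm.mp ?_)
    rw [h9]
    exact mul_mem (mul_mem (mem_cent1_comm.mp (h q hq h7))
      (mem_cent1_comm.mp (h _ (A.mul_mem hq hp) h8))) (mem_cent1_comm.mp (h p hp h3))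
  have h6 : p ∉ 𝐂[u] := fun e => h3 (U4.conj_eq_of_mem_cent1 e)
  rw [relIndex_eq_two_iff.mpr ⟨p, hp, fun b hb => ?_⟩]
  · exact b5a_two_le (v := u) (by simpa using hU 1 A.one_mem)
      fun e => h0 fun x hx => mem_cent1.mpr (mem_cent.mp e x hx)
  by_cases e : b ∈ 𝐂[u]
  · exact Or.inr ⟨e, fun e' => h6 ((mul_mem_cancel_left e).mp e')⟩
  · refine Or.inl ⟨U4.mem_cent1_of_conj_eq ?_, e⟩
    calc _ = b * (p * u * p⁻¹) * b⁻¹ := by group
      _ = u := by rw [← h5 b hb e, hxx b hb]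

/-- Claim 1. -/
theorem Vx.WB_le_cent (hT : IsSylowIn 2 T ⊤) (h : Vx T W u) (lc : LC T W u) (ib : IB T W u)
    (ind : Ind T u) : WB T T ≤ 𝐂[u] := by
  by_contra hc
  obtain ⟨H, A0, d, z0, hd⟩ := id h
  set J := WB T (T ⊓ 𝐂[u]) with hJ
  have hJu : J ≤ T ⊓ 𝐂[u] := WB_le _ _
  obtain ⟨A, hA, hAT, hAN, hAJ⟩ := exists_BB_norm hT.isPGroup (WB_idem T _)
    (hJu.trans inf_le_left) fun e => hc (e.trans (hJu.trans inf_le_right))
  have hAu : ¬ A ≤ 𝐂[u] := fun e => hAJ (hA.le_WB (le_inf hAT e))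
  have hEu : T ⊓ 𝐂(W) ≤ T ⊓ 𝐂[u] := inf_le_inf_left T (U4.cent_le_cent1 hd.uW)
  have hWJ : W ≤ J := ((hd.W_le_Om hT).trans (Om_le _)).trans (WB_mono hEu)
  have hN : ∀ x ∈ A, x ∈ 𝐍(T) := fun x hx => le_normalizer (hAT hx)
  have hJx : ∀ x ∈ A, WB T (T ⊓ 𝐂[x * u * x⁻¹]) = J := fun x hx => by
    rw [cent1_conj, ← cj_eq_of_mem (hAT hx), ← map_conj_inf, cj_eq_of_mem (hAT hx), WB_cj]
    exact map_conj_eq_of_mem_normalizer (hAN hx)
  have hJc : ∀ x ∈ A, J ≤ 𝐂[x * u * x⁻¹] := fun x hx =>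
    (hJx x hx).ge.trans ((WB_le _ _).trans inf_le_right)
  have hWx : ∀ x ∈ A, x •ᶜ W ≤ J := fun x hx => cj_le_of_norm hWJ (hAN hx)
  have huu := hd.elW u hd.uW
  -- `J` does not centralize `W`
  obtain ⟨c, hcJ, hcc, hcW⟩ : ∃ c ∈ J, c * c = 1 ∧ c ∉ 𝐂(W) := by
    by_contra! h1
    have h2 : J ≤ 𝐂(W) := WB_le_of fun B hB h3 c hc => h1 c (hB.le_WB h3 hc) (hB.1 c hc)
    have h3 : J = WB T (T ⊓ 𝐂(W)) := le_antisymm
      ((WB_idem T _).ge.trans (WB_mono (le_inf (hJu.trans inf_le_left) h2))) (WB_mono hEu)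
    exact hAu ((le_inf hAT ((le_inf hAT (h3 ▸ hAN)).trans (h.norm_le hT))).trans hd.Nu)
  obtain ⟨t, ht, htu⟩ := SetLike.not_le_iff_exists.mp hAu
  have hne : u ≠ t * u * t⁻¹ := fun e => htu (U4.mem_cent1_of_conj_eq e.symm)
  have h' := h.cj (hN t ht)
  have lc' := lc.cj (hN t ht)
  obtain ⟨v, hv, hv1, hvu⟩ := four_exists hd.cardW u
  have hv' : t * v * t⁻¹ ∈ t •ᶜ W := conj_mem_conj_iff.mpr hv
  have hcomm : t •ᶜ W ≤ 𝐂(W) := h.comm hT lc h' lc' hne (hWJ.trans (hJc t ht))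
    ((hWx t ht).trans (hJu.trans inf_le_right))
  have hcj : ∀ {b w : X}, b ∈ A → b ∈ 𝐂[w] → ∀ x ∈ A, b ∈ 𝐂[x * w * x⁻¹] := fun {b w} hb e x hx => by
    rw [cent1_conj, ← conj_mem_conj_iff (g := x⁻¹), map_conj_inv_map_conj, hA.1.comm (inv_mem hx) hb]
    simpa using e
  set U := Om J ⊓ 𝐂(A ⊓ 𝐂[u]) with hU
  have hUx : ∀ x ∈ A, x * u * x⁻¹ ∈ U := fun x hx =>
    ⟨⟨hWx x hx (conj_mem_conj_iff.mpr hd.uW),
      mem_cent.mpr fun y hy => mem_cent1.mp (hJc x hx hy), by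
        calc _ = x * (u * u) * x⁻¹ := by group
          _ = 1 := by rw [huu]; group⟩,
      mem_cent.mpr fun b hb => mem_cent1.mp (hcj hb.1 hb.2 x hx)⟩
  have hUJ : U ≤ 𝐂(J) := inf_le_left.trans (Om_le_cent J)
  set M := U ⊔ (W ⊔ t •ᶜ W) with hM
  have hMel : El M := ((Om_el J).mono inf_le_left).sup (hd.elW.sup (hd.elW.cj t) hcomm)
    (le_centralizer_iff.mp (hUJ.trans (centralizer_le (sup_le hWJ (hWx t ht)))))
  have hME : M ≤ T ⊓ 𝐂(W) := le_inf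
    ((sup_le (inf_le_left.trans (Om_le J)) (sup_le hWJ (hWx t ht))).trans (hJu.trans inf_le_left))
    (hMel.le_cent' le_rfl (le_sup_left.trans le_sup_right))
  have hA3 : M ≤ 𝐂(A ⊓ 𝐂(W)) := sup_le
    (inf_le_right.trans (centralizer_le (inf_le_inf_left A (U4.cent_le_cent1 hd.uW))))
    (sup_le (le_centralizer_iff.mp inf_le_right) (by
      rintro _ ⟨w, hw, rfl⟩
      exact mem_cent.mpr fun b hb => mem_cent1.mp (hcj hb.1 (U4.cent_le_cent1 hw hb.2) t ht)))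
  -- the upper bound
  have c1 : Nat.card ↥((A ⊓ 𝐂(W)) ⊔ M) ≤ Nat.card A := by
    rw [hA.2.2]
    exact ((hd.bad hT).mono (sup_le (inf_le_inf_right _ hAT) hME)).card_le
      ((hA.1.mono inf_le_left).sup hMel hA3)
  have c2 := card_sup_mul_card_inf ((le_centralizer_iff.mp hA3).trans (cent_le_norm M))
  have c3 : Nat.card ↥((A ⊓ 𝐂(W)) ⊓ M) ≤ Nat.card ↥(𝐂(A) ⊓ M) :=
    card_le_of_le (inf_le_inf_right M (inf_le_left.trans hA.1.le_cent))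
  -- the lower bound
  set N := (𝐂(A) ⊓ M) ⊔ U with hNd
  have hUM : U ≤ M := le_sup_left
  have hn : 𝐂(A) ⊓ M ≤ 𝐍(U) := inf_le_right.trans (hMel.le_norm hUM)
  have c4 := card_sup_mul_card_inf hn
  rw [inf_assoc, inf_of_le_right hUM, ← hNd] at c4
  have c5 := card_inf_mul_relIndex 𝐂(A) U
  have c6 := card_mul_relIndex (sup_le inf_le_right hUM : N ≤ M)
  obtain ⟨e, he, he'⟩ := ind
  have c7 := b5a_roots hA.1 huu hAu hUx he fun x hx h1 => he' x (hN x hx) h1 (hJx x hx)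
  have c8 := card_inf_mul_relIndex 𝐂[u] A
  have c9 := card_inf_mul_relIndex 𝐂(W) (𝐂[u] ⊓ A)
  rw [← inf_assoc, inf_of_le_left (U4.cent_le_cent1 hd.uW), inf_comm] at c9
  have hvM : v ∈ M := mem_sup_right (mem_sup_left hv)
  have hvM' : t * v * t⁻¹ ∈ M := mem_sup_right (mem_sup_right hv')
  have c10 : 𝐂(W).relIndex (𝐂[u] ⊓ A) < N.relIndex M := by
    by_cases h1 : 𝐂[u] ⊓ A ≤ 𝐂(W)
    · rw [relIndex_eq_one.mpr h1]
      refine b5a_two_le hvM fun h2 => ?_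
      obtain ⟨z, hz, y, hy, e⟩ := (mem_sup_iff_of_le_normalizer hn).mp h2
      have h3 : v * (t * v * t⁻¹) = y * (t * y * t⁻¹) := by
        calc _ = z * y * (t * z * y * t⁻¹) := by rw [← e]; group
          _ = z * (y * z) * (t * y * t⁻¹) := by rw [mem_cent.mp hz.1 t ht]; group
          _ = z * z * y * (t * y * t⁻¹) := by rw [hMel.comm (hUM hy) hz.2]; group
          _ = _ := by rw [hMel z hz.2, one_mul]
      refine b5a_key hT h lc h' lc' hne hv hv' (hJu hcJ).1 (hJu hcJ).2 (hJc t ht hcJ) hcc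
        (b5a_moves hd.elW hd.cardW hd.uW hd.u1 hv hv1 hvu (hJu hcJ).2 hcW) ?_
      rw [h3]
      exact mem_cent1.mpr (mem_cent.mp (mul_mem (hUJ hy)
        (conj_mem_of_mem_normalizer (U4.norm_le_norm_cent J (hAN ht)) (hUJ hy))) c hcJ)
    obtain ⟨b, hb, hbW⟩ := SetLike.not_le_iff_exists.mp h1
    have h2 : N ≤ 𝐂[b] := sup_le (inf_le_left.trans (U4.cent_le_cent1 hb.2))
      (inf_le_right.trans (U4.cent_le_cent1 ⟨hb.2, hb.1⟩))
    have h3 := b5a_moves hd.elW hd.cardW hd.uW hd.u1 hv hv1 hvu hb.1 hbW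
    rw [relIndex_eq_two_iff.mpr ⟨b, hb, fun y hy => ?_⟩]
    · refine b5a_three_le hvM hvM' (fun e => h3 (mem_cent1_comm.mp (h2 e))) (fun e => h3 ?_)
        fun e => b5a_key hT h lc h' lc' hne hv hv' (hAT hb.2) hb.1 (hcj hb.2 hb.1 t ht)
          (hA.1 b hb.2) h3 (mem_cent1_comm.mp (h2 e))
      simpa [mul_assoc] using hcj hb.2 (mem_cent1_comm.mp (h2 e)) t⁻¹ (inv_mem ht)
    by_cases e : y ∈ 𝐂(W)
    · exact Or.inr ⟨e, fun e' => hbW ((mul_mem_cancel_left e).mp e')⟩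
    · exact Or.inl ⟨ib _ (hA.1.mono inf_le_right) (inf_le_right.trans hAT) inf_le_left y hy b hb
        e hbW, e⟩
  have p1 : 0 < Nat.card ↥(𝐂(A) ⊓ U) := Nat.card_pos
  have p2 : 0 < Nat.card ↥(𝐂(A) ⊓ M) := Nat.card_pos
  have p3 : 0 < Nat.card ↥(A ⊓ 𝐂(W)) := Nat.card_pos
  have p4 : 0 < 𝐂[u].relIndex A := Nat.pos_of_ne_zero index_ne_zero_of_finite
  generalize Nat.card ↥(𝐂(A) ⊓ U) = n1, Nat.card ↥(𝐂(A) ⊓ M) = n2, Nat.card ↥(A ⊓ 𝐂(W)) = n3,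
    𝐂[u].relIndex A = s, 𝐂(W).relIndex (𝐂[u] ⊓ A) = ε, N.relIndex M = j,
    𝐂(A).relIndex U = k at *
  have d1 : Nat.card N = n2 * k := Nat.eq_of_mul_eq_mul_right p1 (by rw [c4, ← c5]; ring)
  have d2 : n3 * (n2 * k * j) ≤ n3 * ε * s * n2 := by
    rw [← d1, c6, ← c2, c9, c8]
    exact Nat.mul_le_mul c1 c3
  have d3 : k * j ≤ s * ε := Nat.le_of_mul_le_mul_left (c := n3 * n2)
    (by calc _ = n3 * (n2 * k * j) := by ring
          _ ≤ _ := d2.trans (le_of_eq (by ring))) (by positivity)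
  exact absurd (((Nat.mul_lt_mul_left p4).mpr c10).trans_le (Nat.mul_le_mul_right j c7)) d3.not_gt

end CfsgLib.CO
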