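import Cfsg.Agent.Lib.CO.VB

set_option autoImplicit false

namespace CfsgLib.CO

open Subgroup Cfsg CfsgLib.FT CfsgLib.FT.BGN CfsgLib.GW CfsgLib.Wal
open CfsgLib.FT.U4 (mem_cent1 mem_cent1' mem_cent mem_cent1_comm cent1_conj conj_mem_conj_iff
  orderOf_conj)
open scoped commutatorElement

variable {X : Type*} [Group X] [Finite X] {G T : Subgroup X} {a : X} {r : ℕ}

variable {W : Subgroup X} {u : X}

theorem b5b_WB_inf_cent_eq {x : X} (hx : x ∈ 𝐂(WB T T)) : WB T (T ⊓ 𝐂[x]) = WB T T := by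
  refine le_antisymm (WB_mono inf_le_left) ?_
  calc WB T T = WB T (WB T T) := (WB_idem T T).symm
    _ ≤ WB T (T ⊓ 𝐂[x]) := by
      refine WB_mono (le_inf (WB_le T T) fun y hy => ?_)
      exact mem_cent1.2 (mem_cent.1 hx y hy)

theorem CO1.final (hc : CO1 G T a r) (h : Vx T W u) (ind : Ind T u) (hJ : WB T T ≤ 𝐂[u]) :
    False := by
  have hT := hc.syl
  obtain ⟨H, A0, d, z0, h⟩ := h
  obtain ⟨e, he, hind⟩ := ind
  have hu0 := h.W_le_Om hT h.uW
  have hu : u ∈ Om (WB T T) :=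
    ⟨WB_mono inf_le_left hu0.1, mem_cent.2 fun y hy => mem_cent1.1 (hJ hy), hu0.2.2⟩
  have haN : a ∈ 𝐍(Om (WB T T)) := norm_le_norm_Om _ (norm_le_norm_WB T T hc.anorm)
  have huj : ∀ j : ℕ, a ^ j * u * (a ^ j)⁻¹ ∈ Om (WB T T) := fun j =>
    (mem_normalizer_iff.1 (pow_mem haN j) u).1 hu
  have hstep : ∀ n : ℕ, (u * a) ^ (n + 1) * (a ^ (n + 1))⁻¹ =
      (u * a) ^ n * (a ^ n)⁻¹ * (a ^ n * u * (a ^ n)⁻¹) := by
    intro n
    rw [pow_succ, pow_succ' a]
    group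
  have hp : ∀ n : ℕ, (u * a) ^ n * (a ^ n)⁻¹ ∈ Om (WB T T) := by
    intro n
    induction n with
    | zero => simp
    | succ n ih => rw [hstep]; exact mul_mem ih (huj n)
  have har : a ^ r = 1 := by rw [← hc.ord]; exact pow_orderOf_eq_one a
  have hpr : (u * a) ^ r ∈ Om (WB T T) := by simpa [har] using hp r
  have h1 : (u * a) ^ r = 1 := by
    refine hc.fpf _ hpr.2.2 ?_
    have c1 : (u * a) ^ r * u = u * (u * a) ^ r := (Om_el _).comm hpr hu
    have c2 : (u * a) ^ r * (u * a) = (u * a) * (u * a) ^ r := by rw [← pow_succ, ← pow_succ']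
    rw [← mul_assoc, c1, mul_assoc, mul_assoc] at c2
    exact mul_left_cancel c2
  have hne : ∀ j : ℕ, 0 < j → j < r → a ^ j * u * (a ^ j)⁻¹ ≠ u := by
    intro j h0 hj heq
    have hco : j.Coprime (orderOf a) := by
      rw [hc.ord]
      exact (Nat.coprime_of_lt_prime (by omega) hj hc.prime).symm
    obtain ⟨m, hm⟩ := exists_pow_eq_self_of_coprime hco
    have hm1 : a ^ j ∈ 𝐂[u] := mem_cent1.2 (by rw [← mul_inv_eq_iff_eq_mul]; exact heq)
    have hm2 : a ∈ 𝐂[u] := hm ▸ pow_mem hm1 m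
    exact h.u1 (hc.fpf u hu.2.2 (mem_cent1'.1 hm2))
  have hce : ∀ j : ℕ, 0 < j → j < r → a ^ j * u * (a ^ j)⁻¹ ∈ 𝐂[e] := by
    intro j h0 hj
    refine mem_cent1_comm.1 (hind _ (pow_mem hc.anorm j) (hne j h0 hj) ?_)
    rw [b5b_WB_inf_cent_eq (huj j).2.1, b5b_WB_inf_cent_eq hu.2.1]
  have hq : ∀ n : ℕ, n + 1 ≤ r → u⁻¹ * ((u * a) ^ (n + 1) * (a ^ (n + 1))⁻¹) ∈ 𝐂[e] := by
    intro n
    induction n with
    | zero => intro _; simp
    | succ n ih =>
      intro hn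
      rw [hstep, ← mul_assoc]
      exact mul_mem (ih (by omega)) (hce _ (by omega) (by omega))
  have hr : r - 1 + 1 = r := Nat.sub_add_cancel hc.prime.one_le
  have := hq (r - 1) hr.le
  rw [hr, h1, har, inv_one, mul_one, mul_one, inv_mem_iff] at this
  exact he (mem_cent1_comm.1 this)

end CfsgLib.CO
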