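import Cfsg.Agent.Lib.CO.VB

set_option autoImplicit false

namespace CfsgLib.CO

open Subgroup Cfsg CfsgLib.FT CfsgLib.FT.BGN CfsgLib.GW CfsgLib.Wal
open CfsgLib.FT.U4 (mem_cent1 mem_cent1' mem_cent mem_cent1_comm cent1_conj conj_mem_conj_iff
  orderOf_conj)
open scoped commutatorElement

variable {X : Type*} [Group X] [Finite X] {G T : Subgroup X} {a : X} {r : ℕ}

/-- An involution `e` inducing a transvection with centre `c` on `Om X0`, with its point `φ`. -/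
structure CanTV (T X0 : Subgroup X) (e c : X) (φ : Subgroup X) : Prop where
  sq : e * e = 1
  nm : e ∈ 𝐍(X0)
  pt : Pt T φ
  xc : X0 ≤ 𝐂(φ)
  ec : e ∈ 𝐂(φ)
  uq : ∀ ψ : Subgroup X, Pt T ψ → X0 ≤ 𝐂(ψ) → e ∈ 𝐂(ψ) → ψ = φ
  cO : c ∈ Om X0
  c1 : c ≠ 1
  act : ∀ w ∈ Om X0, e * w * e⁻¹ = w ∨ e * w * e⁻¹ = w * c
  mv : ∃ w ∈ Om X0, e * w * e⁻¹ ≠ w

omit [Finite X] in
theorem can_conj_mul (e x y : X) : e * (x * y) * e⁻¹ = (e * x * e⁻¹) * (e * y * e⁻¹) := by group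

omit [Finite X] in
theorem can_conj_conj (e f x : X) : e * f * x * (e * f)⁻¹ = e * (f * x * f⁻¹) * e⁻¹ := by group

omit [Finite X] in
theorem can_mem_cent {H : Subgroup X} {g : X} (h : ∀ w ∈ H, g * w * g⁻¹ = w) : g ∈ 𝐂(H) :=
  mem_cent.2 fun w hw => by
    have := h w hw
    rw [mul_inv_eq_iff_eq_mul] at this
    exact this.symm

omit [Finite X] in
theorem can_conj_eq {H : Subgroup X} {g w : X} (h : g ∈ 𝐂(H)) (hw : w ∈ H) : g * w * g⁻¹ = w := by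
  rw [← mem_cent.1 h w hw, mul_inv_cancel_right]

omit [Finite X] in
theorem can_cent_cj {g n : X} {H : Subgroup X} (h : g ∈ 𝐂(H)) : n * g * n⁻¹ ∈ 𝐂(n •ᶜ H) := by
  refine mem_cent.2 ?_
  rintro _ ⟨w, hw, rfl⟩
  have := mem_cent.1 h w hw
  change n * w * n⁻¹ * (n * g * n⁻¹) = n * g * n⁻¹ * (n * w * n⁻¹)
  rw [← can_conj_mul, ← can_conj_mul, this]

omit [Finite X] in
theorem can_le_cent_cj {n : X} {H Y : Subgroup X} (hn : n ∈ 𝐍(Y)) (h : Y ≤ 𝐂(H)) :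
    Y ≤ 𝐂(n •ᶜ H) := fun y hy => by
  have := can_cent_cj (n := n) (h (conj_mem_of_mem_normalizer' hn hy))
  rwa [show n * (n⁻¹ * y * n) * n⁻¹ = y by group] at this

namespace CanTV

variable {X0 φ φ' : Subgroup X} {e c e' c' : X}

theorem nO (h : CanTV T X0 e c φ) : e ∈ 𝐍(Om X0) := norm_le_norm_Om X0 h.nm

omit [Finite X] in
theorem inv (h : CanTV T X0 e c φ) : e⁻¹ = e := inv_eq_of_mul_eq_one_right h.sq

omit [Finite X] in
theorem conj_conj (h : CanTV T X0 e c φ) (w : X) : e * (e * w * e⁻¹) * e⁻¹ = w := by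
  rw [← can_conj_conj, h.sq]
  group

theorem cc (h : CanTV T X0 e c φ) : c * c = 1 := Om_el X0 c h.cO

omit [Finite X] in
theorem ne (h : CanTV T X0 e c φ) (w : X) : w * c ≠ w := fun k => h.c1 (by simpa using k)

theorem fix (h : CanTV T X0 e c φ) : e * c * e⁻¹ = c := by
  rcases h.act c h.cO with k | k
  · exact k
  · rw [h.cc] at k
    exact absurd (by simpa using k) h.c1

theorem cj (h : CanTV T X0 e c φ) {n : X} (hn : n ∈ 𝐍(X0)) :
    CanTV T X0 (n * e * n⁻¹) (n * c * n⁻¹) (n •ᶜ φ) where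
  sq := by rw [← can_conj_mul, h.sq]; group
  nm := mul_mem (mul_mem hn h.nm) (inv_mem hn)
  pt := h.pt.cj n
  xc := can_le_cent_cj hn h.xc
  ec := can_cent_cj h.ec
  uq := fun ψ h1 h2 h3 => by
    have h4 := can_cent_cj (n := n⁻¹) h3
    rw [show n⁻¹ * (n * e * n⁻¹) * n⁻¹⁻¹ = e by group] at h4
    rw [← h.uq _ (h1.cj n⁻¹) (can_le_cent_cj (inv_mem hn) h2) h4, cj_cj, mul_inv_cancel]
    exact (cj_eq_of_mem (one_mem ψ)).symm
  cO := conj_mem_of_mem_normalizer (norm_le_norm_Om X0 hn) h.cO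
  c1 := by simpa using h.c1
  act := fun w hw => by
    have h1 := conj_mem_of_mem_normalizer' (norm_le_norm_Om X0 hn) hw
    have h2 : n * e * n⁻¹ * w * (n * e * n⁻¹)⁻¹ = n * (e * (n⁻¹ * w * n) * e⁻¹) * n⁻¹ := by group
    rcases h.act _ h1 with k | k
    · left; rw [h2, k]; group
    · right; rw [h2, k]; group
  mv := by
    obtain ⟨w, hw, h1⟩ := h.mv
    refine ⟨n * w * n⁻¹, conj_mem_of_mem_normalizer (norm_le_norm_Om X0 hn) hw, fun k => h1 ?_⟩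
    have h2 : n * e * n⁻¹ * (n * w * n⁻¹) * (n * e * n⁻¹)⁻¹ = n * (e * w * e⁻¹) * n⁻¹ := by group
    rw [h2] at k
    simpa using k

/-- If `e` fixes the centre of `e'` then `(e e') ^ 4` centralizes `Om X0`. -/
theorem pow_four (h : CanTV T X0 e c φ) (h' : CanTV T X0 e' c' φ') (hf : e * c' * e⁻¹ = c') :
    (e * e') ^ 4 ∈ 𝐂(Om X0) := by
  have hO := Om_el X0
  -- the square sends `w` to `w` or `w c'`
  have key : ∀ w ∈ Om X0, e * (e' * (e * (e' * w * e'⁻¹) * e⁻¹) * e'⁻¹) * e⁻¹ = w ∨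
      e * (e' * (e * (e' * w * e'⁻¹) * e⁻¹) * e'⁻¹) * e⁻¹ = w * c' := by
    intro w hw
    have hw' : e' * w * e'⁻¹ ∈ Om X0 := conj_mem_of_mem_normalizer h'.nO hw
    rcases h.act _ hw' with k | k
    · -- `e` fixes `e' w e'`
      rw [k, h'.conj_conj]
      left
      rcases h'.act w hw with l | l
      · rwa [l] at k
      · rw [l, can_conj_mul, hf] at k
        exact mul_right_cancel k
    · rw [k, can_conj_mul e', h'.conj_conj, can_conj_mul e]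
      have k2 : e * w * e⁻¹ = w * c := by
        rcases h'.act w hw with l | l
        · rwa [l] at k
        · rw [l, can_conj_mul, hf, mul_assoc w, hO.comm h'.cO h.cO, ← mul_assoc] at k
          exact mul_right_cancel k
      rw [k2]
      rcases h'.act c h.cO with l | l
      · left
        rw [l, h.fix, mul_assoc, h.cc, mul_one]
      · right
        rw [l, can_conj_mul, h.fix, hf, ← mul_assoc, mul_assoc w, h.cc, mul_one]
  have key2 : ∀ w, (e * e') ^ 2 * w * ((e * e') ^ 2)⁻¹ =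
      e * (e' * (e * (e' * w * e'⁻¹) * e⁻¹) * e'⁻¹) * e⁻¹ := fun w => by
    rw [pow_two]; group
  have hc' : (e * e') ^ 2 * c' * ((e * e') ^ 2)⁻¹ = c' := by
    rw [key2, h'.fix, hf, h'.fix, hf]
  refine can_mem_cent fun w hw => ?_
  rw [show (4 : ℕ) = 2 + 2 from rfl, pow_add, can_conj_conj]
  have k1 := key w hw
  rw [← key2] at k1
  rcases k1 with k | k
  · rw [k, k]
  · rw [k, can_conj_mul, k, hc', mul_assoc, h'.cc, mul_one]

/-- (i) -/
theorem moves (hT : IsSylowIn 2 T ⊤) (hX : MaxW T X0) (h : CanTV T X0 e c φ)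
    (h' : CanTV T X0 e' c' φ') (hne : φ ≠ φ') : e * c' * e⁻¹ = c' * c := by
  refine (h.act c' h'.cO).resolve_left fun hf => hne ?_
  have h4 := h.pow_four h' hf
  set g := e * e' with hg
  obtain ⟨k, m, hm, ho⟩ := Nat.exists_eq_two_pow_mul_odd (orderOf_pos g).ne'
  obtain ⟨j, rfl⟩ := hm
  set s := g ^ ((2 * j + 1) * (2 * j + 1)) with hs
  have hs2 : s ^ 2 ^ k = 1 := by
    rw [hs, ← pow_mul, show (2 * j + 1) * (2 * j + 1) * 2 ^ k = 2 ^ k * (2 * j + 1) * (2 * j + 1) by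
      ring, pow_mul, ← ho, pow_orderOf_eq_one, one_pow]
  have hsg : s = g * (g ^ 4) ^ (j * j + j) := by
    rw [hs, ← pow_mul, ← pow_succ']
    congr 1
    ring
  have hgi : e * g * e⁻¹ = g⁻¹ := by
    rw [hg, mul_inv_rev, h.inv, h'.inv, ← mul_assoc, h.sq, one_mul]
  have hsi : e * s * e⁻¹ = s⁻¹ := by
    rw [hs, ← conj_pow, hgi, inv_pow]
  have p1 : IsPGroup 2 (zpowers s) :=
    IsPGroup.of_card_dvd_pow (n := k) (by
      rw [Nat.card_zpowers]; exact orderOf_dvd_of_pow_eq_one hs2)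
  have p2 : IsPGroup 2 (zpowers e) := (el_zpowers h.sq).isPGroup
  have hn : zpowers e ≤ 𝐍(zpowers s) := by
    rw [zpowers_le]
    refine mem_normalizer_of_map_conj_eq ?_
    rw [cj_zpowers, hsi, zpowers_inv]
  have p3 : IsPGroup 2 (zpowers e ⊔ zpowers s : Subgroup X) :=
    IsPGroup.to_sup_of_normal_right' p2 p1 hn
  have hn2 : zpowers e ⊔ zpowers s ≤ 𝐍(X0) :=
    sup_le (zpowers_le.2 h.nm) (zpowers_le.2 (pow_mem (mul_mem h.nm h'.nm) _))
  have p4 : IsPGroup 2 ((zpowers e ⊔ zpowers s) ⊔ X0 : Subgroup X) :=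
    IsPGroup.to_sup_of_normal_right' p3 hX.bad.1 hn2
  obtain ⟨ψ, hψ, hc⟩ := exists_pt hT p4
  have q1 : X0 ≤ 𝐂(ψ) := le_sup_right.trans hc
  have q2 : e ∈ 𝐂(ψ) := hc (mem_sup_left (mem_sup_left (mem_zpowers e)))
  have q3 : s ∈ 𝐂(ψ) := hc (mem_sup_left (mem_sup_right (mem_zpowers s)))
  have q4 : g ^ 4 ∈ 𝐂(ψ) := centralizer_le (hX.pt_le_Om hT hψ q1) h4
  have q5 : g ∈ 𝐂(ψ) := by
    rw [hsg] at q3
    exact (mul_mem_cancel_right (pow_mem q4 _)).1 q3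
  have q6 : e' ∈ 𝐂(ψ) := (mul_mem_cancel_left q2).1 q5
  exact (h.uq ψ hψ q1 q2).symm.trans (h'.uq ψ hψ q1 q6)

theorem cj_ne (hT : IsSylowIn 2 T ⊤) (h : CanTV T X0 e c φ) (h' : CanTV T X0 e' c' φ')
    (hne : φ ≠ φ') : e' •ᶜ φ ≠ φ := fun k => hne (h'.uq φ h.pt h.xc
      (h.pt.mem_cent hT (mem_normalizer_of_map_conj_eq k) (by rw [h'.sq]; exact one_mem _)))

omit [Finite X] in
theorem cj_ne' (h' : CanTV T X0 e' c' φ') (hne : φ ≠ φ') : e' •ᶜ φ ≠ φ' := fun k => hne (by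
  rw [← cj_eq_of_mem_cent h'.ec] at k
  exact cj_inj.1 k)

/-- The conjugate of `e` by `e'` has the centre `c c'`. -/
theorem third (hT : IsSylowIn 2 T ⊤) (hX : MaxW T X0) (h : CanTV T X0 e c φ)
    (h' : CanTV T X0 e' c' φ') (hne : φ ≠ φ') :
    CanTV T X0 (e' * e * e'⁻¹) (c * c') (e' •ᶜ φ) := by
  have := h.cj h'.nm
  rwa [h'.moves hT hX h hne.symm] at this

/-- (ii) -/
theorem three (hT : IsSylowIn 2 T ⊤) (hX : MaxW T X0) (h : CanTV T X0 e c φ)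
    (h' : CanTV T X0 e' c' φ') (hne : φ ≠ φ') {x y : X} {ψ : Subgroup X}
    (k : CanTV T X0 x y ψ) : ψ = φ ∨ ψ = φ' ∨ ψ = e' •ᶜ φ := by
  by_contra! hc
  obtain ⟨h1, h2, h3⟩ := hc
  have m1 := h.moves hT hX k h1.symm
  have m2 := h'.moves hT hX k h2.symm
  have m3 := (h.third hT hX h' hne).moves hT hX k h3.symm
  have m4 := h.moves hT hX h' hne
  have hO := Om_el X0
  have e1 : e' * e * e'⁻¹ * y * (e' * e * e'⁻¹)⁻¹ = e' * (e * (e'⁻¹ * y * e'⁻¹⁻¹) * e⁻¹) * e'⁻¹ := by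
    group
  have e2 : e'⁻¹ * y * e'⁻¹⁻¹ = y * c' := by rw [h'.inv, m2]
  have e3 : e * (y * c') * e⁻¹ = y * c' := by
    rw [can_conj_mul, m1, m4, hO.comm h'.cO h.cO, mul_assoc, ← mul_assoc c, h.cc, one_mul]
  rw [e1, e2, e3, ← m2, h'.conj_conj] at m3
  exact (h.third hT hX h' hne).ne y m3.symm

/-- An involution at `φ` fixes the centre of every other involution at `φ`. -/
theorem fix_same (hT : IsSylowIn 2 T ⊤) (hX : MaxW T X0) (h : CanTV T X0 e c φ)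
    (h' : CanTV T X0 e' c' φ) {b d : X} (k : CanTV T X0 b d φ') (hne : φ ≠ φ') :
    e' * c * e'⁻¹ = c := by
  have m1 := h'.moves hT hX k hne
  have m2 := h'.moves hT hX (h.third hT hX k hne) (h.cj_ne hT k hne).symm
  rw [can_conj_mul, m1, mul_assoc c] at m2
  exact mul_right_cancel m2

/-- (iii) -/
theorem centre_eq (hT : IsSylowIn 2 T ⊤) (hX : MaxW T X0) (h : CanTV T X0 e c φ)
    (h' : CanTV T X0 e' c' φ) {b d : X} (k : CanTV T X0 b d φ') (hne : φ ≠ φ') : c = c' := by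
  have hO := Om_el X0
  have f1 := h.fix_same hT hX h' k hne
  have f2 := h'.fix_same hT hX h k hne
  have hφ := hX.pt_le_Om hT k.pt k.xc
  have o2 : e * e' * (e * e') ∈ 𝐂(Om X0) := by
    refine can_mem_cent fun w hw => ?_
    rw [can_conj_conj, can_conj_conj, can_conj_conj]
    have hw' : e' * w * e'⁻¹ ∈ Om X0 := conj_mem_of_mem_normalizer h'.nO hw
    have k2 : e * (e' * w * e'⁻¹) * e⁻¹ = e' * (e * w * e⁻¹) * e'⁻¹ := by
      rcases h.act w hw with l | l <;> rcases h'.act w hw with l' | l'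
      · rw [l', l, l']
      · rw [l', l, l', can_conj_mul, l, f2]
      · rw [l', l, can_conj_mul, l', f1]
      · rw [l', l, can_conj_mul, can_conj_mul, l, l', f1, f2, mul_assoc, mul_assoc,
          hO.comm h.cO h'.cO]
    rw [k2, h'.conj_conj, h.conj_conj]
  have t1 : e •ᶜ φ' = e' •ᶜ φ' := by
    rcases k.three hT hX h' hne.symm (k.third hT hX h hne.symm) with l | l | l
    · exact absurd l (k.cj_ne hT h hne.symm)
    · exact absurd l (h.cj_ne' hne.symm)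
    · exact l
  have t2 : e * e' ∈ 𝐍(φ') := by
    refine mem_normalizer_of_map_conj_eq ?_
    rw [← cj_cj, ← t1, cj_cj, h.sq]
    exact cj_eq_of_mem (one_mem _)
  have t3 : e * e' ∈ 𝐂(φ') := k.pt.mem_cent hT t2 (centralizer_le hφ o2)
  have t4 : e ∉ 𝐂(φ') := fun l => hne (h.uq φ' k.pt k.xc l).symm
  have t5 : ∃ x ∈ φ', e * x * e⁻¹ ≠ x := by
    by_contra! l
    exact t4 (can_mem_cent l)
  obtain ⟨x, hx, t6⟩ := t5
  have t7 : e' * x * e'⁻¹ = e * x * e⁻¹ := by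
    have := can_conj_eq t3 hx
    rw [can_conj_conj] at this
    rw [← h.conj_conj (e' * x * e'⁻¹), this]
  have t8 := (h.act x (hφ hx)).resolve_left t6
  have t9 := (h'.act x (hφ hx)).resolve_left (by rwa [t7])
  rw [t7, t8] at t9
  exact mul_left_cancel t9

end CanTV

variable {W H A0 : Subgroup X} {u d z0 : X}

theorem VxD.canTV (hT : IsSylowIn 2 T ⊤) (h : VxD T W u H A0 d z0) :
    ∃ e : X, CanTV T (WB T (T ⊓ 𝐂(W))) e u (Om T) := by
  obtain ⟨e, he, heW⟩ := SetLike.not_le_iff_exists.1 h.AW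
  have hX := h.maxW hT
  have hAH : A0 ≤ H := h.AN.trans h.NH
  obtain ⟨b1, b2, b3⟩ := h.bb hT h.elA h.cardA hAH h.AW
  have b4 := b1.le_WB b2
  have hXT : WB T (T ⊓ 𝐂(W)) ≤ T ⊓ 𝐂(W) := WB_le _ _
  have hO : Om (WB T (T ⊓ 𝐂(W))) ≤ (A0 ⊓ 𝐂(W)) ⊔ W :=
    b1.le_of_cent hT (Om_el _) ((Om_le_cent _).trans (centralizer_le b4))
  have hE : EE T (WB T (T ⊓ 𝐂(W))) A0 :=
    ⟨h.elA, h.cardA, hAH.trans h.H_le, fun k => h.AW (k.trans (hXT.trans inf_le_right))⟩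
  have heu : e ∈ 𝐂[u] := h.Nu (h.AN he)
  have hAT : A0 ≤ T := h.AN.trans inf_le_left
  refine ⟨e, h.elA e he, hE.norm he, pt_Om T, hXT.trans (inf_le_left.trans (le_cent_Om T)),
    le_cent_Om T (hAT he), fun ψ h1 h2 h3 => ?_, h.W_le_Om hT h.uW, h.u1, fun w hw => ?_, ?_⟩
  · refine hX.uniq hT hE h1 (pt_Om T) h2 (fun x hx => ?_)
      (hXT.trans (inf_le_left.trans (le_cent_Om T))) (hAT.trans (le_cent_Om T))
    by_cases hxW : x ∈ 𝐂(W)
    · exact h2 (b4 (mem_sup_left ⟨hx, hxW⟩))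
    · exact (mul_mem_cancel_right h3).1
        (h2 (b4 (mem_sup_left ⟨mul_mem hx he, b3 x hx e he hxW heW⟩)))
  · have hn : W ≤ 𝐍(A0 ⊓ 𝐂(W)) :=
      (le_centralizer_iff.1 inf_le_right).trans (FT.cent_le_norm _)
    obtain ⟨x, hx, v, hv, rfl⟩ := mem_sup_norm hn (hO hw)
    have h1 : e * x * e⁻¹ = x := can_conj_eq (h.elA.le_cent he) hx.1
    rw [can_conj_mul, h1]
    rcases four_conj h.elW h.cardW h.uW h.u1 (h.AN he).2 heu hv with k | k
    · left; rw [k]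
    · right; rw [k, mul_assoc]
  · by_contra! k
    exact heW (can_mem_cent fun w hw => k w (h.W_le_Om hT hw))

omit [Finite X] in
theorem VxD.conj_ne (h : VxD T W u H A0 d z0) : d * u * d⁻¹ ≠ u := fun k =>
  h.du (mem_cent1.2 (mul_inv_eq_iff_eq_mul.1 k))

omit [Finite X] in
theorem VxD.conj_mem (h : VxD T W u H A0 d z0) : d * u * d⁻¹ ∈ W :=
  conj_mem_of_mem_normalizer (h.HW h.dH) h.uW

theorem VxD.cj_Om_ne (h : VxD T W u H A0 d z0) : d •ᶜ Om T ≠ Om T := fun k => by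
  have h1 : d * z0 * d⁻¹ ∈ Om T := conj_mem_of_mem_normalizer (mem_normalizer_of_map_conj_eq k) h.zZ
  have h2 : d * z0 * d⁻¹ * (d * u * d⁻¹) = z0 * u := by
    rw [← can_conj_mul, mem_cent1.1 (h.Hz h.dH), mul_inv_cancel_right]
  have h3 : d * u * d⁻¹ = (d * z0 * d⁻¹)⁻¹ * z0 * u := by
    rw [mul_assoc _ z0, ← h2, inv_mul_cancel_left]
  obtain ⟨e, he, heW⟩ := SetLike.not_le_iff_exists.1 h.AW
  have heu : e ∈ 𝐂[u] := h.Nu (h.AN he)
  have h4 := four_conj' h.elW h.cardW h.uW h.u1 (h.AN he).2 heu heW h.conj_mem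
    (by simpa using h.u1) h.conj_ne
  have h5 : e * ((d * z0 * d⁻¹)⁻¹ * z0) * e⁻¹ = (d * z0 * d⁻¹)⁻¹ * z0 :=
    can_conj_eq (le_cent_Om T (h.AN he).1) (mul_mem (inv_mem h1) h.zZ)
  have h6 : e * u * e⁻¹ = u := by rw [mem_cent1.1 heu, mul_inv_cancel_right]
  rw [h3, can_conj_mul, h5, h6] at h4
  exact h.u1 (by simpa using h4)

/-- (Can) -/
theorem Vx.can (hT : IsSylowIn 2 T ⊤) {W W' : Subgroup X} {u u' : X} (h : Vx T W u)
    (h' : Vx T W' u') (he : WB T (T ⊓ 𝐂(W)) = WB T (T ⊓ 𝐂(W'))) : W = W' := by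
  obtain ⟨H, A0, d, z0, h⟩ := h
  obtain ⟨H', A0', d', z0', h'⟩ := h'
  have hX := h.maxW hT
  obtain ⟨e, t1⟩ := h.canTV hT
  obtain ⟨e', t2⟩ := h'.canTV hT
  have t4 := t2.cj (h'.H_le h'.dH)
  rw [← he] at t2 t4
  have t3 := t1.cj (h.H_le h.dH)
  have n1 := h.cj_Om_ne
  have n2 := h'.cj_Om_ne
  obtain rfl : u = u' := t1.centre_eq hT hX t2 t3 n1.symm
  have hm : d' * u * d'⁻¹ ∈ W := by
    rcases t1.three hT hX t3 n1.symm t4 with l | l | l
    · exact absurd l n2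
    · rw [l] at t4
      rw [t4.centre_eq hT hX t3 t1 n1]
      exact h.conj_mem
    · rw [l] at t4
      rw [t4.centre_eq hT hX (t1.third hT hX t3 n1.symm) t1 (t1.cj_ne hT t3 n1.symm)]
      exact mul_mem h.uW h.conj_mem
  refine (eq_of_le_of_card_ge (fun w hw => ?_) (by rw [h.cardW, h'.cardW])).symm
  rcases four_mem h'.elW h'.cardW h'.uW h'.u1 h'.conj_mem (by simpa using h.u1) h'.conj_ne hw with
    rfl | rfl | rfl | rfl
  · exact one_mem _
  · exact h.uW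
  · exact hm
  · exact mul_mem hm h.uW

end CfsgLib.CO
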