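import Cfsg.Agent.Lib.CO.A1
import Cfsg.Agent.Lib.CO.A2
import Cfsg.Agent.Lib.CO.B1a
import Cfsg.Agent.Lib.CO.B1b
import Cfsg.Agent.Lib.CO.B1c
import Cfsg.Agent.Lib.CO.B3b
import Cfsg.Agent.Lib.CO.B3c
import Cfsg.Agent.Lib.CO.B5a
import Cfsg.Agent.Lib.CO.B5b

set_option autoImplicit false

namespace CfsgLib.CO

open Subgroup Cfsg CfsgLib.FT CfsgLib.FT.BGN CfsgLib.GW CfsgLib.Wal
open CfsgLib.FT.U4 (mem_cent1 mem_cent1' mem_cent mem_cent1_comm cent1_conj conj_mem_conj_iff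
  orderOf_conj)
open scoped commutatorElement

variable {X : Type*} [Group X] [Finite X] {G T : Subgroup X} {a : X} {r : ℕ}

theorem CO0.false (h0 : CO0 G T a r) : False := by
  have h := h0.co1
  refine h.false_of_wc ?_
  by_contra nwc
  obtain ⟨X0, L, E, hf⟩ := h.exists_FFc nwc
  obtain ⟨W, P, A, u, z0, d, hs⟩ := h.seed hf
  obtain ⟨W', u', hv⟩ := hs.vx h0.syl
  have key : LC T W' u' ∧ IB T W' u' ∧ Ind T u' := by
    by_cases hb : T ⊓ 𝐂[u'] ≤ 𝐍(W')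
    · exact hv.nonblock h0.syl hb
    · have lc := hv.block_lc h0.syl hb
      exact ⟨lc, hv.block_ib h0.syl hb lc, hv.block_ind h0.syl hb lc⟩
  exact h.final hv key.2.2 (hv.WB_le_cent h0.syl key.1 key.2.1 key.2.2)

end CfsgLib.CO
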